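import Mathlib
import Cfsg.Agent.S0107
import Cfsg.Agent.S0201
import Cfsg.Agent.Lib.PGroups.Presentations
import Cfsg.Agent.Lib.Core.Residual

/-!
# Simple groups of order 175560: the 2-structure
-/

set_option autoImplicit false

namespace Cfsg.Agent.Lib.U175

open Subgroup
open scoped commutatorElement IsMulCommutative

/-- Groups of order 8: nonabelian ones are dihedral or quaternion. -/
theorem order8 {H : Type*} [Group H] [Finite H] (hH : Nat.card H = 8)
    (hna : ¬ ∀ a b : H, a * b = b * a) :
    Nonempty (DihedralGroup 4 ≃* H) ∨ Nonempty (QuaternionGroup 2 ≃* H) := by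
  classical
  -- an element of order 4
  have hr : ∃ r : H, orderOf r = 4 := by
    by_contra hno
    push Not at hno
    have hdiv : ∀ x : H, orderOf x ∣ 8 := fun x => hH ▸ orderOf_dvd_natCard x
    by_cases h8 : ∃ x : H, orderOf x = 8
    · obtain ⟨x, hx⟩ := h8
      apply hna
      have hc : IsCyclic H := isCyclic_of_orderOf_eq_card x (by rw [hx, hH])
      exact fun a b => hc.commutative.is_comm.comm a b
    · push Not at h8
      apply hna
      have hsq : ∀ x : H, x * x = 1 := by
        intro x
        have h1 := hdiv x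
        have h2 : orderOf x ∈ Nat.divisors 8 := by simp [h1]
        have h3 : Nat.divisors 8 = {1, 2, 4, 8} := by decide
        rw [h3] at h2
        simp only [Finset.mem_insert, Finset.mem_singleton] at h2
        rcases h2 with h | h | h | h
        · rw [orderOf_eq_one_iff] at h; simp [h]
        · rw [← sq, ← h]; exact pow_orderOf_eq_one x
        · exact absurd h (hno x)
        · exact absurd h (h8 x)
      intro a b
      have h1 := hsq (a * b)
      have ha := hsq a
      have hb := hsq b
      have ha' : a⁻¹ = a := inv_eq_of_mul_eq_one_left ha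
      have hb' : b⁻¹ = b := inv_eq_of_mul_eq_one_left hb
      calc a * b = (b⁻¹ * a⁻¹) := by
            rw [← mul_inv_rev]; exact (inv_eq_of_mul_eq_one_left h1).symm
        _ = b * a := by rw [ha', hb']
  obtain ⟨r, hr⟩ := hr
  set A : Subgroup H := zpowers r with hA
  have hcA : Nat.card A = 4 := by rw [hA, Nat.card_zpowers, hr]
  have hiA : A.index = 2 := by
    have := Subgroup.card_mul_index A
    rw [hcA, hH] at this
    omega
  have hnA : A.Normal := Subgroup.normal_of_index_eq_two hiA
  -- an element outside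
  have hs : ∃ s : H, s ∉ A := by
    by_contra hall
    push Not at hall
    have : A = ⊤ := eq_top_iff.2 fun x _ => hall x
    rw [this] at hiA
    simp at hiA
  obtain ⟨s, hs⟩ := hs
  -- elements of A
  have hAel : ∀ x ∈ A, x = 1 ∨ x = r ∨ x = r ^ 2 ∨ x = r⁻¹ := by
    intro x hx
    obtain ⟨k, rfl⟩ := mem_zpowers_iff.1 hx
    have hr4 : r ^ (4 : ℤ) = 1 := by
      rw [zpow_ofNat, ← hr]; exact pow_orderOf_eq_one r
    have hk : k = 4 * (k / 4) + k % 4 := (Int.mul_ediv_add_emod k 4).symm
    have hm : r ^ k = r ^ (k % 4) := by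
      conv_lhs => rw [hk]
      rw [zpow_add, zpow_mul, hr4, one_zpow, one_mul]
    have h0 : 0 ≤ k % 4 := Int.emod_nonneg _ (by norm_num)
    have h4 : k % 4 < 4 := Int.emod_lt_of_pos _ (by norm_num)
    rw [hm]
    generalize k % 4 = m at h0 h4
    have : m = 0 ∨ m = 1 ∨ m = 2 ∨ m = 3 := by omega
    rcases this with rfl | rfl | rfl | rfl
    · left; simp
    · right; left; simp
    · right; right; left; exact zpow_ofNat r 2
    · right; right; right
      rw [zpow_ofNat]
      apply eq_inv_of_mul_eq_one_left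
      rw [← pow_succ, show 3 + 1 = 4 from rfl, ← hr]
      exact pow_orderOf_eq_one r
  have hr1 : r ≠ 1 := by
    rintro rfl
    simp at hr
  have hr4 : r ^ 4 = 1 := by rw [← hr]; exact pow_orderOf_eq_one r
  have hr2 : r ^ 2 ≠ 1 := by
    intro h
    have := orderOf_dvd_of_pow_eq_one h
    rw [hr] at this
    omega
  have hrinv : r ≠ r⁻¹ := by
    intro h
    apply hr2
    rw [sq]
    nth_rw 1 [h]
    simp
  have hrmem : r ∈ A := mem_zpowers r
  -- conjugate of r is r or its inverse
  have hconj : s * r * s⁻¹ = r ∨ s * r * s⁻¹ = r⁻¹ := by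
    have h1 : s * r * s⁻¹ ∈ A := hnA.conj_mem r hrmem s
    have hp : ∀ x : H, s * x * s⁻¹ = 1 → x = 1 := by
      intro x hx
      have : x = s⁻¹ * (s * x * s⁻¹) * s := by group
      rw [this, hx]; group
    have hsq : (s * r * s⁻¹) ^ 2 = s * r ^ 2 * s⁻¹ := by
      rw [conj_pow]
    rcases hAel _ h1 with h | h | h | h
    · exact absurd (hp r h) hr1
    · exact Or.inl h
    · exfalso
      apply hr2
      apply hp
      rw [← hsq, h, ← pow_mul, show 2 * 2 = 4 from rfl, hr4]
    · exact Or.inr h
  -- the index two decomposition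
  have hdec : ∀ x : H, x ∈ A ∨ s⁻¹ * x ∈ A := by
    intro x
    by_cases hx : x ∈ A
    · exact Or.inl hx
    · right
      rw [Subgroup.mul_mem_iff_of_index_two hiA]
      simp [hx, hs]
  rcases hconj with hc | hc
  · -- abelian, contradiction
    exfalso
    apply hna
    have hcomm : s * r = r * s := by
      have : s * r = s * r * s⁻¹ * s := by group
      rw [this, hc]
    have hsA : ∀ x ∈ A, s * x = x * s := by
      intro x hx
      obtain ⟨k, rfl⟩ := mem_zpowers_iff.1 hx
      exact ((Commute.zpow_right (show Commute s r from hcomm) k))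
    have hAA : ∀ x ∈ A, ∀ y ∈ A, x * y = y * x := by
      intro x hx y hy
      obtain ⟨k, rfl⟩ := mem_zpowers_iff.1 hx
      obtain ⟨l, rfl⟩ := mem_zpowers_iff.1 hy
      rw [← zpow_add, ← zpow_add, add_comm]
    intro a b
    have hform : ∀ x : H, ∃ y ∈ A, x = y ∨ x = s * y := by
      intro x
      rcases hdec x with h | h
      · exact ⟨x, h, Or.inl rfl⟩
      · exact ⟨_, h, Or.inr (by group)⟩
    obtain ⟨u, hu, hau⟩ := hform a
    obtain ⟨v, hv, hbv⟩ := hform b
    have huv := hAA u hu v hv
    have hsu := hsA u hu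
    have hsv := hsA v hv
    rcases hau with rfl | rfl <;> rcases hbv with rfl | rfl
    · exact huv
    · calc a * (s * v) = (a * s) * v := by rw [mul_assoc]
        _ = s * a * v := by rw [hsu]
        _ = s * (a * v) := by rw [mul_assoc]
        _ = s * (v * a) := by rw [huv]
        _ = s * v * a := by rw [mul_assoc]
    · calc s * u * b = s * (u * b) := by rw [mul_assoc]
        _ = s * (b * u) := by rw [huv]
        _ = s * b * u := by rw [mul_assoc]
        _ = b * s * u := by rw [hsv]
        _ = b * (s * u) := by rw [mul_assoc]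
    · calc s * u * (s * v) = s * (u * s) * v := by simp only [mul_assoc]
        _ = s * (s * u) * v := by rw [hsu]
        _ = s * s * (u * v) := by simp only [mul_assoc]
        _ = s * s * (v * u) := by rw [huv]
        _ = s * (v * s) * u := by rw [← hsv]; simp only [mul_assoc]
        _ = s * v * (s * u) := by simp only [mul_assoc]
  · -- inversion
    have hs2A : s ^ 2 ∈ A := by
      rw [sq, Subgroup.mul_mem_iff_of_index_two hiA]
    have hss : s * s ^ 2 * s⁻¹ = s ^ 2 := by
      rw [sq]; group
    rcases hAel _ hs2A with h | h | h | h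
    · left
      have := Cfsg.Agent.Lib.PGroups.Presentations.nonempty_dihedral_equiv (m := 4) (a := r)
        (y := s) hr h hc hs (by rw [hH])
      exact this
    · exfalso
      rw [h, hc] at hss
      exact hrinv hss.symm
    · right
      exact Cfsg.Agent.Lib.PGroups.Presentations.nonempty_quaternion_equiv (m := 2) (a := r)
        (y := s) (by rw [hr]) h hc hs (by rw [hH])
    · exfalso
      rw [h] at hss
      have h2 : s * r * s⁻¹ = r := by
        have h3 : s * r⁻¹ * s⁻¹ = r⁻¹ := hss
        have h4 : s * r⁻¹ * s⁻¹ = (s * r * s⁻¹)⁻¹ := by group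
        rw [h4] at h3
        exact inv_injective h3
      rw [hc] at h2
      exact hrinv h2.symm

variable {G : Type*} [Group G] [Finite G] [IsSimpleGroup G]

theorem card_sylow2 (hG : Nat.card G = 175560) (S : Sylow 2 G) :
    Nat.card (S : Subgroup G) = 8 := by
  obtain ⟨k, hk⟩ := IsPGroup.iff_card.1 S.isPGroup'
  have h1 : (8 : ℕ) ∣ Nat.card (S : Subgroup G) :=
    S.pow_dvd_card_of_pow_dvd_card (n := 3) (by rw [hG]; norm_num)
  have h2 : Nat.card (S : Subgroup G) ∣ 175560 := hG ▸ Subgroup.card_subgroup_dvd_card _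
  rw [hk] at h1 h2 ⊢
  have hk3 : 3 ≤ k := by
    have : (2 : ℕ) ^ 3 ∣ 2 ^ k := by simpa using h1
    exact (Nat.pow_dvd_pow_iff_le_right (by norm_num)).1 this
  have hk4 : k < 4 := by
    by_contra hk4
    have : (2 : ℕ) ^ 4 ∣ 2 ^ k := pow_dvd_pow 2 (by omega)
    have := this.trans h2
    norm_num at this
  have : k = 3 := by omega
  subst this
  norm_num

theorem normal_eq (N : Subgroup G) [hN : N.Normal] : N = ⊥ ∨ N = ⊤ :=
  IsSimpleGroup.eq_bot_or_eq_top_of_normal N hN

/-- `G` is perfect. -/
theorem commutator_top (hG : Nat.card G = 175560) : commutator G = ⊤ := by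
  rcases normal_eq (commutator G) with h | h
  · exfalso
    have hc : ∀ a b : G, a * b = b * a := by
      intro a b
      have : ⁅a, b⁆ ∈ commutator G := by
        rw [_root_.commutator_def]
        exact Subgroup.commutator_mem_commutator (mem_top a) (mem_top b)
      rw [h, mem_bot, commutatorElement_eq_one_iff_mul_comm] at this
      exact this
    obtain ⟨S⟩ : Nonempty (Sylow 2 G) := inferInstance
    have hN : (S : Subgroup G).Normal := ⟨fun n hn g => by
      rw [show g * n * g⁻¹ = n by rw [hc g n]; group]; exact hn⟩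
    have hc8 := card_sylow2 hG S
    rcases normal_eq (S : Subgroup G) with h0 | h0
    · rw [h0] at hc8; simp at hc8
    · rw [h0] at hc8
      simp [hG] at hc8
  · exact h

/-- Burnside transfer for an abelian Sylow subgroup: an element centralized by the normalizer
of `S` is trivial (since `G` is perfect). -/
theorem fix_eq_one (hG : Nat.card G = 175560) (S : Sylow 2 G)
    (hS : ∀ x ∈ (S : Subgroup G), ∀ y ∈ (S : Subgroup G), x * y = y * x)
    {z : G} (hzS : z ∈ (S : Subgroup G))
    (hz : ∀ n ∈ normalizer ((S : Subgroup G) : Set G), n * z * n⁻¹ = z) : z = 1 := by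
  haveI hcomm : IsMulCommutative (S : Subgroup G) :=
    ⟨⟨fun a b => Subtype.ext (hS a a.2 b b.2)⟩⟩
  have key : ∀ (k : ℕ) (g₀ : G), g₀⁻¹ * z ^ k * g₀ ∈ (S : Subgroup G) →
      g₀⁻¹ * z ^ k * g₀ = z ^ k := by
    intro k g₀ h
    obtain ⟨n, hn, h'⟩ := S.conj_eq_normalizer_conj_of_mem (z ^ k) g₀
      ((S : Subgroup G).pow_mem hzS k) h
    rw [h']
    have h1 : n⁻¹ * z * n = z := by
      have := hz n⁻¹ (inv_mem hn)
      simpa using this
    have h2 : n⁻¹ * z ^ k * n = (n⁻¹ * z * n) ^ k := by
      have := conj_pow (a := n⁻¹) (b := z) (i := k)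
      simpa using this.symm
    rw [h2, h1]
  have h1 := MonoidHom.transfer_eq_pow (MonoidHom.id (S : Subgroup G)) z key
  have h2 : (MonoidHom.id (S : Subgroup G)).transfer z = 1 := by
    have hle : commutator G ≤ ((MonoidHom.id (S : Subgroup G)).transfer).ker := by
      rw [_root_.commutator_def, Subgroup.commutator_le]
      intro a _ b _
      rw [MonoidHom.mem_ker, map_commutatorElement,
        commutatorElement_eq_one_iff_mul_comm]
      exact mul_comm _ _
    rw [commutator_top hG] at hle
    exact hle (mem_top z)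
  rw [h2] at h1
  have h3 : z ^ (S : Subgroup G).index = 1 := by
    have := congrArg Subtype.val h1
    simpa using this.symm
  -- `z` is a 2-element and the index is odd
  have hodd : ((S : Subgroup G).index).Coprime 2 := by
    have := S.card_coprime_index
    obtain ⟨k, hk⟩ := IsPGroup.iff_card.1 S.isPGroup'
    rw [card_sylow2 hG S] at this
    exact (Nat.Coprime.coprime_dvd_left (by norm_num : 2 ∣ 8) this).symm
  have hz8 : z ^ 8 = 1 := by
    have := pow_card_eq_one' (x := (⟨z, hzS⟩ : (S : Subgroup G)))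
    rw [card_sylow2 hG S] at this
    simpa using congrArg Subtype.val this
  have hco : Nat.Coprime (S : Subgroup G).index 8 := by
    have : (8 : ℕ) = 2 ^ 3 := by norm_num
    rw [this]
    exact Nat.Coprime.pow_right 3 hodd
  have := pow_gcd_eq_one.2 ⟨h3, hz8⟩
  rw [hco] at this
  simpa using this

theorem abelian_exponent (hG : Nat.card G = 175560) (S : Sylow 2 G)
    (hS : ∀ x ∈ (S : Subgroup G), ∀ y ∈ (S : Subgroup G), x * y = y * x) :
    ∀ x ∈ (S : Subgroup G), x ^ 2 = 1 := by
  classical
  by_contra hno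
  push Not at hno
  obtain ⟨r, hrS, hr⟩ := hno
  haveI hcomm : IsMulCommutative (S : Subgroup G) :=
    ⟨⟨fun a b => Subtype.ext (hS a a.2 b b.2)⟩⟩
  let f : (S : Subgroup G) →* (S : Subgroup G) := powMonoidHom 2
  have h1 : Nat.card f.ker * Nat.card f.range = 8 := by
    rw [← Subgroup.index_ker, Subgroup.card_mul_index, card_sylow2 hG S]
  have hker1 : Nat.card f.ker ≠ 1 := by
    intro h
    have hk : f.ker = ⊥ := Subgroup.eq_bot_of_card_eq _ h
    obtain ⟨t, ht⟩ := exists_prime_orderOf_dvd_card' (G := (S : Subgroup G)) 2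
      (by rw [card_sylow2 hG S]; norm_num)
    have ht1 : t ∈ f.ker := by
      rw [MonoidHom.mem_ker]
      change t ^ 2 = 1
      have := pow_orderOf_eq_one t
      rwa [ht] at this
    rw [hk, mem_bot] at ht1
    rw [ht1] at ht
    simp at ht
  have hran1 : Nat.card f.range ≠ 1 := by
    intro h
    have hk : f.range = ⊥ := Subgroup.eq_bot_of_card_eq _ h
    have : f ⟨r, hrS⟩ ∈ f.range := ⟨_, rfl⟩
    rw [hk, mem_bot] at this
    apply hr
    have h2 : (⟨r, hrS⟩ : (S : Subgroup G)) ^ 2 = 1 := this
    simpa using congrArg Subtype.val h2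
  have hcases : Nat.card f.ker = 2 ∨ Nat.card f.range = 2 := by
    have hd : Nat.card f.ker ∣ 8 := ⟨_, h1.symm⟩
    have hmem : Nat.card f.ker ∈ Nat.divisors 8 := Nat.mem_divisors.2 ⟨hd, by norm_num⟩
    have h3 : Nat.divisors 8 = {1, 2, 4, 8} := by decide
    rw [h3] at hmem
    simp only [Finset.mem_insert, Finset.mem_singleton] at hmem
    rcases hmem with h | h | h | h
    · exact absurd h hker1
    · exact Or.inl h
    · right
      rw [h] at h1
      omega
    · rw [h] at h1
      exfalso
      apply hran1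
      omega
  -- conjugation by the normalizer
  have hconjS : ∀ n ∈ normalizer ((S : Subgroup G) : Set G), ∀ x ∈ (S : Subgroup G),
      n * x * n⁻¹ ∈ (S : Subgroup G) := by
    intro n hn x hx
    exact (Subgroup.mem_normalizer_iff.1 hn x).1 hx
  rcases hcases with hc | hc
  · -- kernel of order two
    obtain ⟨z, hz, huniq⟩ := (Nat.card_eq_two_iff' (1 : f.ker)).1 hc
    have hz' : ((z : f.ker) : (S : Subgroup G)) ≠ 1 := by
      intro h; apply hz; exact Subtype.ext h
    have hzz : ((z : (S : Subgroup G)) : G) ≠ 1 := by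
      intro h; apply hz'; exact Subtype.ext h
    apply hzz
    apply fix_eq_one hG S hS ((z : (S : Subgroup G))).2
    intro n hn
    set w : (S : Subgroup G) := (z : (S : Subgroup G)) with hw
    have hw2 : ((w : G)) ^ 2 = 1 := by
      have h2 : f w = 1 := z.2
      have h3 : w ^ 2 = 1 := h2
      simpa using congrArg Subtype.val h3
    let y : (S : Subgroup G) := ⟨n * (w : G) * n⁻¹, hconjS n hn _ w.2⟩
    have hy : y ∈ f.ker := by
      rw [MonoidHom.mem_ker]
      apply Subtype.ext
      change (n * (w : G) * n⁻¹) ^ 2 = 1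
      rw [conj_pow, hw2]; group
    have hy1 : (⟨y, hy⟩ : f.ker) ≠ 1 := by
      intro h
      apply hzz
      have h2 : (n * (w : G) * n⁻¹) = 1 := by
        have := congrArg (fun t : f.ker => ((t : (S : Subgroup G)) : G)) h
        exact this
      have h3 : (w : G) = n⁻¹ * (n * (w : G) * n⁻¹) * n := by group
      rw [h3, h2]; group
    have := huniq _ hy1
    have h5 : n * (w : G) * n⁻¹ = (w : G) := by
      have := congrArg (fun t : f.ker => ((t : (S : Subgroup G)) : G)) this
      exact this
    exact h5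
  · -- range of order two
    obtain ⟨z, hz, huniq⟩ := (Nat.card_eq_two_iff' (1 : f.range)).1 hc
    have hz' : ((z : f.range) : (S : Subgroup G)) ≠ 1 := by
      intro h; apply hz; exact Subtype.ext h
    have hzz : ((z : (S : Subgroup G)) : G) ≠ 1 := by
      intro h; apply hz'; exact Subtype.ext h
    apply hzz
    apply fix_eq_one hG S hS ((z : (S : Subgroup G))).2
    intro n hn
    obtain ⟨w, hw⟩ := z.2
    have hw2 : ((w : G)) ^ 2 = ((z : (S : Subgroup G)) : G) := by
      have h3 : w ^ 2 = (z : (S : Subgroup G)) := hw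
      simpa using congrArg Subtype.val h3
    let y : (S : Subgroup G) := ⟨n * (w : G) * n⁻¹, hconjS n hn _ w.2⟩
    let y2 : (S : Subgroup G) := f y
    have hy : y2 ∈ f.range := ⟨y, rfl⟩
    have hyv : (y2 : G) = n * ((z : (S : Subgroup G)) : G) * n⁻¹ := by
      change (n * (w : G) * n⁻¹) ^ 2 = _
      rw [conj_pow, hw2]
    have hy1 : (⟨y2, hy⟩ : f.range) ≠ 1 := by
      intro h
      apply hzz
      have h2 : (y2 : G) = 1 := by
        have := congrArg (fun t : f.range => ((t : (S : Subgroup G)) : G)) h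
        exact this
      rw [hyv] at h2
      have h3 : ((z : (S : Subgroup G)) : G) =
          n⁻¹ * (n * ((z : (S : Subgroup G)) : G) * n⁻¹) * n := by group
      rw [h3, h2]; group
    have := huniq _ hy1
    have h5 : (y2 : G) = ((z : (S : Subgroup G)) : G) := by
      have := congrArg (fun t : f.range => ((t : (S : Subgroup G)) : G)) this
      exact this
    rw [← hyv, h5]

theorem two_cases (hG : Nat.card G = 175560) (S : Sylow 2 G) :
    (∀ x ∈ (S : Subgroup G), x ^ 2 = 1) ∨ Nonempty ((S : Subgroup G) ≃* DihedralGroup 4) := by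
  by_cases hab : ∀ x ∈ (S : Subgroup G), ∀ y ∈ (S : Subgroup G), x * y = y * x
  · exact Or.inl (abelian_exponent hG S hab)
  · right
    have hna : ¬ ∀ a b : (S : Subgroup G), a * b = b * a := by
      intro h
      apply hab
      intro x hx y hy
      exact congrArg Subtype.val (h ⟨x, hx⟩ ⟨y, hy⟩)
    rcases order8 (card_sylow2 hG S) hna with ⟨⟨e⟩⟩ | ⟨⟨e⟩⟩
    · exact ⟨e.symm⟩
    · exfalso
      have hc := Cfsg.Agent.S0201.result S 0 (e.symm) (by
        intro N hN hodd
        rcases normal_eq N with h | h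
        · exact h
        · exfalso
          rw [h] at hodd
          simp only [Subgroup.card_top, hG] at hodd
          revert hodd
          decide)
      rcases normal_eq (Subgroup.center G) with h | h
      · rw [h] at hc; simp at hc
      · rw [h] at hc
        simp [hG] at hc

/-- The residual is everything. -/
theorem residual_top (hG : Nat.card G = 175560) : Cfsg.pResidual 2 G = ⊤ := by
  haveI : (Cfsg.pResidual 2 G).Normal := Cfsg.Agent.Lib.Core.Residual.pResidual_normal
  rcases normal_eq (Cfsg.pResidual 2 G) with h | h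
  · exfalso
    obtain ⟨x, hx⟩ := exists_prime_orderOf_dvd_card' (G := G) 3 (by rw [hG]; norm_num)
    have : x ∈ Cfsg.pResidual 2 G := Subgroup.subset_closure (by
      change Nat.Coprime (orderOf x) 2
      rw [hx]; norm_num)
    rw [h, mem_bot] at this
    rw [this] at hx
    simp at hx
  · exact h

/-- An involution is conjugate into a given Sylow 2-subgroup. -/
theorem conj_into (S : Sylow 2 G) {x : G} (hx : orderOf x = 2) :
    ∃ g : G, g * x * g⁻¹ ∈ (S : Subgroup G) := by
  have hp : IsPGroup 2 (zpowers x) := by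
    rw [IsPGroup.iff_card]
    exact ⟨1, by rw [Nat.card_zpowers, hx]; rfl⟩
  obtain ⟨T, hT⟩ := hp.exists_le_sylow
  obtain ⟨g, hg⟩ := MulAction.exists_smul_eq G T S
  refine ⟨g, ?_⟩
  rw [← hg, Sylow.smul_def]
  exact Subgroup.smul_mem_pointwise_smul x (MulAut.conj g) _ (hT (mem_zpowers x))

/-- Orbits of the normalizer on the nontrivial elements of an elementary abelian `S`. -/
theorem single_orbit (hG : Nat.card G = 175560) (S : Sylow 2 G)
    (hS : ∀ x ∈ (S : Subgroup G), x ^ 2 = 1) {x y : G} (hx : x ∈ (S : Subgroup G))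
    (hy : y ∈ (S : Subgroup G)) (hx1 : x ≠ 1) (hy1 : y ≠ 1) :
    ∃ n ∈ normalizer ((S : Subgroup G) : Set G), n * x * n⁻¹ = y := by
  classical
  have hab : ∀ x ∈ (S : Subgroup G), ∀ y ∈ (S : Subgroup G), x * y = y * x := by
    intro a ha b hb
    have h1 := hS (a * b) (mul_mem ha hb)
    have h2 := hS a ha
    have h3 := hS b hb
    have ha' : a⁻¹ = a := inv_eq_of_mul_eq_one_left (by rw [← sq, h2])
    have hb' : b⁻¹ = b := inv_eq_of_mul_eq_one_left (by rw [← sq, h3])
    calc a * b = (b⁻¹ * a⁻¹) := by
          rw [← mul_inv_rev]; exact (inv_eq_of_mul_eq_one_left (by rw [← sq, h1])).symm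
      _ = b * a := by rw [ha', hb']
  set N : Subgroup G := normalizer ((S : Subgroup G) : Set G) with hN
  have hconjS : ∀ n ∈ N, ∀ u ∈ (S : Subgroup G), n * u * n⁻¹ ∈ (S : Subgroup G) := by
    intro n hn u hu
    exact (Subgroup.mem_normalizer_iff.1 hn u).1 hu
  letI act : MulAction N (S : Subgroup G) :=
    { smul := fun n u => ⟨(n : G) * u * (n : G)⁻¹, hconjS n n.2 u u.2⟩
      one_smul := fun u => Subtype.ext (by
        change ((1 : N) : G) * (u : G) * ((1 : N) : G)⁻¹ = u
        simp)
      mul_smul := fun a b u => Subtype.ext (by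
        change ((a * b : N) : G) * (u : G) * ((a * b : N) : G)⁻¹ =
          (a : G) * ((b : G) * (u : G) * (b : G)⁻¹) * (a : G)⁻¹
        push_cast
        group) }
  have hsmul : ∀ (n : N) (u : (S : Subgroup G)), ((n • u : (S : Subgroup G)) : G) =
      (n : G) * u * (n : G)⁻¹ := fun _ _ => rfl
  have hcN : ¬ 16 ∣ Nat.card N := by
    intro h
    have := h.trans (Subgroup.card_subgroup_dvd_card N)
    rw [hG] at this
    norm_num at this
  have hSN : (S : Subgroup G) ≤ N := Subgroup.le_normalizer
  have hstab : ∀ u : (S : Subgroup G), 8 ∣ Nat.card (MulAction.stabilizer N u) := by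
    intro u
    have hle : ((S : Subgroup G).subgroupOf N) ≤ MulAction.stabilizer N u := by
      intro n hn
      rw [MulAction.mem_stabilizer_iff]
      apply Subtype.ext
      rw [hsmul]
      have hn' : (n : G) ∈ (S : Subgroup G) := hn
      rw [hab _ hn' _ u.2]
      group
    have h1 := Subgroup.card_dvd_of_le hle
    have h2 : Nat.card ((S : Subgroup G).subgroupOf N) = 8 := by
      rw [Nat.card_congr (Subgroup.subgroupOfEquivOfLe hSN).toEquiv, card_sylow2 hG S]
    rwa [h2] at h1
  have hodd : ∀ u : (S : Subgroup G), Odd (MulAction.orbit N u).ncard := by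
    intro u
    rw [← Nat.not_even_iff_odd]
    rintro ⟨d, hd⟩
    apply hcN
    have h1 := Subgroup.card_mul_index (MulAction.stabilizer N u)
    rw [MulAction.index_stabilizer, hd] at h1
    obtain ⟨c, hc⟩ := hstab u
    rw [hc] at h1
    exact ⟨c * d, by rw [← h1]; ring⟩
  have hne1 : ∀ u : (S : Subgroup G), u ≠ 1 → (MulAction.orbit N u).ncard ≠ 1 := by
    intro u hu h1
    obtain ⟨a, ha⟩ := Set.ncard_eq_one.1 h1
    have hmem : u ∈ MulAction.orbit N u := MulAction.mem_orbit_self u
    rw [ha, Set.mem_singleton_iff] at hmem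
    apply hu
    apply Subtype.ext
    apply fix_eq_one hG S hab u.2
    intro n hn
    have h2 : (⟨n, hn⟩ : N) • u ∈ MulAction.orbit N u := MulAction.mem_orbit u _
    rw [ha, Set.mem_singleton_iff, ← hmem] at h2
    exact congrArg Subtype.val h2
  have hcompl : (({1} : Set (S : Subgroup G))ᶜ).ncard = 7 := by
    have := Set.ncard_add_ncard_compl ({1} : Set (S : Subgroup G))
    rw [Set.ncard_singleton, card_sylow2 hG S] at this
    omega
  have hsub : ∀ u : (S : Subgroup G), u ≠ 1 →
      MulAction.orbit N u ⊆ ({1} : Set (S : Subgroup G))ᶜ := by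
    rintro u hu _ ⟨n, rfl⟩ h1
    rw [Set.mem_singleton_iff] at h1
    apply hu
    have h2 : ((n • u : (S : Subgroup G)) : G) = 1 := congrArg Subtype.val h1
    rw [hsmul] at h2
    apply Subtype.ext
    have h3 : (u : G) = (n : G)⁻¹ * ((n : G) * u * (n : G)⁻¹) * n := by group
    rw [h3, h2]
    simp
  have hdisj : ∀ u v : (S : Subgroup G), v ∉ MulAction.orbit N u →
      Disjoint (MulAction.orbit N u) (MulAction.orbit N v) := by
    intro u v hv
    rw [Set.disjoint_left]
    intro w hwu hwv
    apply hv
    have h1 : MulAction.orbit N w = MulAction.orbit N u := MulAction.orbit_eq_iff.2 hwu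
    have h2 : MulAction.orbit N w = MulAction.orbit N v := MulAction.orbit_eq_iff.2 hwv
    rw [← h1, h2]
    exact MulAction.mem_orbit_self v
  by_contra hno
  push Not at hno
  set x' : (S : Subgroup G) := ⟨x, hx⟩ with hx'
  set y' : (S : Subgroup G) := ⟨y, hy⟩ with hy'
  have hx1' : x' ≠ 1 := fun h => hx1 (congrArg Subtype.val h)
  have hy1' : y' ≠ 1 := fun h => hy1 (congrArg Subtype.val h)
  have hyx : y' ∉ MulAction.orbit N x' := by
    rintro ⟨n, hn⟩
    exact hno n n.2 (congrArg Subtype.val hn)
  have hge3 : ∀ u : (S : Subgroup G), u ≠ 1 → 3 ≤ (MulAction.orbit N u).ncard := by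
    intro u hu
    obtain ⟨k, hk⟩ := hodd u
    have := hne1 u hu
    omega
  have h1 := Set.ncard_union_eq (hdisj x' y' hyx)
  have h2 : (MulAction.orbit N x' ∪ MulAction.orbit N y').ncard ≤ 7 := by
    rw [← hcompl]
    exact Set.ncard_le_ncard (Set.union_subset (hsub x' hx1') (hsub y' hy1'))
  have ha := hge3 x' hx1'
  have hb := hge3 y' hy1'
  obtain ⟨k1, hk1⟩ := hodd x'
  obtain ⟨k2, hk2⟩ := hodd y'
  have h6 : (MulAction.orbit N x' ∪ MulAction.orbit N y').ncard = 6 := by omega
  -- a seventh element
  obtain ⟨w, hw, hwU⟩ := Set.exists_mem_notMem_of_ncard_lt_ncard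
    (s := MulAction.orbit N x' ∪ MulAction.orbit N y')
    (t := ({1} : Set (S : Subgroup G))ᶜ) (by rw [h6, hcompl]; norm_num)
  have hw1 : w ≠ 1 := hw
  have hwx : w ∉ MulAction.orbit N x' := fun h => hwU (Or.inl h)
  have hwy : w ∉ MulAction.orbit N y' := fun h => hwU (Or.inr h)
  have hd : Disjoint (MulAction.orbit N x' ∪ MulAction.orbit N y') (MulAction.orbit N w) :=
    Set.disjoint_union_left.2 ⟨hdisj x' w hwx, hdisj y' w hwy⟩
  have h7 := Set.ncard_union_eq hd
  have h8 : ((MulAction.orbit N x' ∪ MulAction.orbit N y') ∪ MulAction.orbit N w).ncard ≤ 7 := by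
    rw [← hcompl]
    exact Set.ncard_le_ncard (Set.union_subset
      (Set.union_subset (hsub x' hx1') (hsub y' hy1')) (hsub w hw1))
  have h9 := hge3 w hw1
  omega

theorem one_class (hG : Nat.card G = 175560) {x y : G} (hx : orderOf x = 2) (hy : orderOf y = 2) :
    ∃ g : G, g * x * g⁻¹ = y := by
  obtain ⟨S⟩ : Nonempty (Sylow 2 G) := inferInstance
  rcases two_cases hG S with h | ⟨⟨e⟩⟩
  · obtain ⟨a, ha⟩ := conj_into S hx
    obtain ⟨b, hb⟩ := conj_into S hy
    have h1 : a * x * a⁻¹ ≠ 1 := by
      intro h0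
      have : x = a⁻¹ * (a * x * a⁻¹) * a := by group
      rw [h0] at this
      rw [this] at hx
      simp at hx
    have h2 : b * y * b⁻¹ ≠ 1 := by
      intro h0
      have : y = b⁻¹ * (b * y * b⁻¹) * b := by group
      rw [h0] at this
      rw [this] at hy
      simp at hy
    obtain ⟨n, -, hn⟩ := single_orbit hG S h ha hb h1 h2
    refine ⟨b⁻¹ * n * a, ?_⟩
    have : b⁻¹ * n * a * x * (b⁻¹ * n * a)⁻¹ = b⁻¹ * (n * (a * x * a⁻¹) * n⁻¹) * b := by group
    rw [this, hn]
    group
  · exact Cfsg.Agent.S0107.result S 2 (le_refl 2) ⟨e⟩ (residual_top hG) x y hx hy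

end Cfsg.Agent.Lib.U175
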