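/-
Piece B of S4273: a group of order 120 with a central involution, elementary abelian Sylow `2`-subgroups
and no normal subgroup of order 5 is `C₂ × A₅`.
-/
import Cfsg.Agent.S0494
import Cfsg.Agent.Lib.SmallSimple.G168e

set_option autoImplicit false
set_option linter.unusedVariables false

open scoped commutatorElement

namespace Cfsg.Agent.Lib.U175

namespace BAux

open Cfsg.Agent.Lib.Small.Sieve Cfsg.Agent.Lib.SmallSimple.Count Cfsg.Agent.Lib.SmallSimple.G168e

theorem isPGroup_zp {G : Type*} [Group G] {p : ℕ} [hp : Fact p.Prime] {x : G} {k : ℕ} (h : x ^ p ^ k = 1) :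
    IsPGroup p (Subgroup.zpowers x) := by
  obtain ⟨j, -, hj⟩ := (Nat.dvd_prime_pow hp.out).mp (orderOf_dvd_of_pow_eq_one h)
  exact IsPGroup.of_card (n := j) (by rw [Nat.card_zpowers, hj])

/-- A normal Sylow subgroup of a normal subgroup is normal. -/
theorem normal_map_of_normal_sylow {X : Type*} [Group X] [Finite X] {p : ℕ} [Fact p.Prime] (L : Subgroup X)
    [hL : L.Normal] (P : Sylow p L) (hP : (P : Subgroup L).Normal) :
    ((P : Subgroup L).map L.subtype).Normal := by
  haveI := Sylow.characteristic_of_normal P hP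
  exact ConjAct.normal_of_characteristic_of_normal

/-- In a group of order 30 the Sylow `5`-subgroups are normal. -/
theorem normal_sylow5_thirty {Y : Type*} [Group Y] [Finite Y] (hY : Nat.card Y = 30) (P : Sylow 5 Y)
    [Fact (Nat.Prime 5)] : (P : Subgroup Y).Normal := by
  classical
  have h3f : Fact (Nat.Prime 3) := ⟨by norm_num⟩
  by_contra hn
  have hY5 : Nat.card Y = 5 ^ 1 * 6 := by rw [hY]; norm_num
  have hY3 : Nat.card Y = 3 ^ 1 * 10 := by rw [hY]; norm_num
  have hP5 : Nat.card (P : Subgroup Y) = 5 := by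
    simpa using card_sylow_eq hY5 (by norm_num) P
  have hidx : (P : Subgroup Y).index = 6 := index_sylow_eq hY5 (by norm_num) P
  have hdvd : Nat.card (Sylow 5 Y) ∣ 6 := by rw [← hidx]; exact P.card_dvd_index
  have hmod : Nat.card (Sylow 5 Y) % 5 = 1 := card_sylow_modEq_one 5 Y
  have hle := Nat.le_of_dvd (by norm_num) hdvd
  have hne1 : Nat.card (Sylow 5 Y) ≠ 1 := by
    intro h1
    have hsub : Subsingleton (Sylow 5 Y) := (Nat.card_eq_one_iff_unique.mp h1).1
    exact hn (Sylow.normal_of_subsingleton P)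
  have h6 : Nat.card (Sylow 5 Y) = 6 := by
    have hpos : 0 < Nat.card (Sylow 5 Y) := Nat.card_pos
    omega
  have h24 : Nat.card {g : Y // orderOf g = 5} = 24 := by
    rw [card_orderOf_eq_of_card_sylow P hP5, h6]
  obtain ⟨R⟩ : Nonempty (Sylow 3 Y) := inferInstance
  have hR3 : Nat.card (R : Subgroup Y) = 3 := by
    simpa using card_sylow_eq hY3 (by norm_num) R
  have hidxR : (R : Subgroup Y).index = 10 := index_sylow_eq hY3 (by norm_num) R
  have hdvdR : Nat.card (Sylow 3 Y) ∣ 10 := by rw [← hidxR]; exact R.card_dvd_index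
  have hmodR : Nat.card (Sylow 3 Y) % 3 = 1 := card_sylow_modEq_one 3 Y
  have hleR := Nat.le_of_dvd (by norm_num) hdvdR
  have hR110 : Nat.card (Sylow 3 Y) = 1 ∨ Nat.card (Sylow 3 Y) = 10 := by
    have hpos : 0 < Nat.card (Sylow 3 Y) := Nat.card_pos
    have : Nat.card (Sylow 3 Y) ≠ 4 ∧ Nat.card (Sylow 3 Y) ≠ 7 := by
      constructor <;> (intro h; rw [h] at hdvdR; revert hdvdR; decide)
    omega
  have hne10 : Nat.card (Sylow 3 Y) ≠ 10 := by
    intro h10
    have h20 : Nat.card {g : Y // orderOf g = 3} = 20 := by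
      rw [card_orderOf_eq_of_card_sylow R hR3, h10]
    let f : {g : Y // orderOf g = 5} ⊕ {g : Y // orderOf g = 3} → Y := Sum.elim Subtype.val Subtype.val
    have hf : Function.Injective f := by
      rintro (⟨a, ha⟩ | ⟨a, ha⟩) (⟨b, hb⟩ | ⟨b, hb⟩) h
      · have h' : a = b := h
        subst h'
        rfl
      · have h' : a = b := h
        subst h'
        rw [ha] at hb
        omega
      · have h' : a = b := h
        subst h'
        rw [ha] at hb
        omega
      · have h' : a = b := h
        subst h'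
        rfl
    have h1 := Nat.card_le_card_of_injective f hf
    rw [Nat.card_sum, h24, h20, hY] at h1
    omega
  have hR1 : Nat.card (Sylow 3 Y) = 1 := hR110.resolve_right hne10
  haveI hRn : (R : Subgroup Y).Normal := by
    have hsub : Subsingleton (Sylow 3 Y) := (Nat.card_eq_one_iff_unique.mp hR1).1
    exact Sylow.normal_of_subsingleton R
  -- the quotient of order 10
  let π := QuotientGroup.mk' (R : Subgroup Y)
  have hπs : Function.Surjective π := QuotientGroup.mk'_surjective _
  have hK : Nat.card (Y ⧸ (R : Subgroup Y)) = 5 * 2 := by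
    have h1 := Subgroup.card_eq_card_quotient_mul_card_subgroup (R : Subgroup Y)
    rw [hY, hR3] at h1
    omega
  obtain ⟨T⟩ : Nonempty (Sylow 5 (Y ⧸ (R : Subgroup Y))) := inferInstance
  haveI hTn : (T : Subgroup (Y ⧸ (R : Subgroup Y))).Normal := normal_sylow_of_card hK (by norm_num) (by norm_num) T
  have hidxT : (T : Subgroup (Y ⧸ (R : Subgroup Y))).index = 2 := index_sylow_eq (by rw [hK]; norm_num : _ = 5 ^ 1 * 2) (by norm_num) T
  let L : Subgroup Y := (T : Subgroup (Y ⧸ (R : Subgroup Y))).comap π
  have hLidx : L.index = 2 := by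
    rw [← hidxT]
    exact Subgroup.index_comap_of_surjective _ hπs
  have hL15 : Nat.card L = 15 := by
    have h1 := L.card_mul_index
    rw [hLidx, hY] at h1
    omega
  have hsub : ∀ g : Y, orderOf g = 5 → g ∈ L := by
    intro g hg
    have hg5 : π g ^ 5 ^ 1 = 1 := by
      rw [← map_pow, pow_one, ← hg, pow_orderOf_eq_one, map_one]
    obtain ⟨Q, hQ⟩ := (isPGroup_zp hg5).exists_le_sylow
    have hsubT : Subsingleton (Sylow 5 (Y ⧸ (R : Subgroup Y))) := by
      haveI := Sylow.unique_of_normal T hTn
      infer_instance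
    have : Q = T := Subsingleton.elim _ _
    subst this
    exact hQ (Subgroup.mem_zpowers _)
  let f : {g : Y // orderOf g = 5} → L := fun g => ⟨g.1, hsub g.1 g.2⟩
  have hf : Function.Injective f := by
    rintro ⟨a, ha⟩ ⟨b, hb⟩ h
    have h' : a = b := congrArg Subtype.val h
    subst h'
    rfl
  have h1 := Nat.card_le_card_of_injective f hf
  rw [h24, hL15] at h1
  omega

/-- A group of order 60 without normal Sylow `5`-subgroups is simple. -/
theorem isSimple_of_sixty {X : Type*} [Group X] [Finite X] [hp5 : Fact (Nat.Prime 5)] (hX : Nat.card X = 60)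
    (h5 : ∀ P : Sylow 5 X, ¬ (P : Subgroup X).Normal) : IsSimpleGroup X := by
  classical
  have hX5 : Nat.card X = 5 ^ 1 * 12 := by rw [hX]; norm_num
  have hcard5 : ∀ P : Sylow 5 X, Nat.card (P : Subgroup X) = 5 := fun P => by
    simpa using card_sylow_eq hX5 (by norm_num) P
  -- the number of Sylow subgroups
  have hn5 : Nat.card (Sylow 5 X) = 6 := by
    obtain ⟨P⟩ : Nonempty (Sylow 5 X) := inferInstance
    have hidx : (P : Subgroup X).index = 12 := index_sylow_eq hX5 (by norm_num) P
    have hdvd : Nat.card (Sylow 5 X) ∣ 12 := by rw [← hidx]; exact P.card_dvd_index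
    have hmod : Nat.card (Sylow 5 X) % 5 = 1 := card_sylow_modEq_one 5 X
    have hle := Nat.le_of_dvd (by norm_num) hdvd
    have hne1 : Nat.card (Sylow 5 X) ≠ 1 := by
      intro h1
      have hsub : Subsingleton (Sylow 5 X) := (Nat.card_eq_one_iff_unique.mp h1).1
      exact h5 P (Sylow.normal_of_subsingleton P)
    have hne11 : Nat.card (Sylow 5 X) ≠ 11 := by
      intro h
      rw [h] at hdvd
      revert hdvd
      decide
    have hpos : 0 < Nat.card (Sylow 5 X) := Nat.card_pos
    omega
  -- a normal subgroup of order divisible by 5 is everything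
  have hStar : ∀ L : Subgroup X, L.Normal → 5 ∣ Nat.card L → L = ⊤ := by
    intro L hL hd
    obtain ⟨x, hx⟩ := exists_prime_orderOf_dvd_card' (G := L) 5 hd
    have hx5 : ((x : L) : X) ^ 5 ^ 1 = 1 := by
      have h1 := pow_orderOf_eq_one x
      rw [hx] at h1
      have h2 := congrArg Subtype.val h1
      simpa using h2
    obtain ⟨P, hP⟩ := (isPGroup_zp hx5).exists_le_sylow
    have hxo : orderOf (x : X) = 5 := by
      rw [← hx]
      exact Subgroup.orderOf_coe x
    have hPL : (P : Subgroup X) ≤ L := by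
      have h1 : Nat.card (Subgroup.zpowers (x : X)) = 5 := by
        rw [Nat.card_zpowers, hxo]
      have h2 : Subgroup.zpowers (x : X) = P :=
        Subgroup.eq_of_le_of_card_ge hP (by rw [h1, hcard5 P])
      rw [← h2, Subgroup.zpowers_le]
      exact x.2
    -- Frattini
    have hFr : Subgroup.normalizer ((P : Subgroup X) : Set X) ⊔ L = ⊤ := by
      have h1 := Sylow.normalizer_sup_eq_top' P hPL
      exact h1
    set N := Subgroup.normalizer ((P : Subgroup X) : Set X) with hN
    have hNidx : N.index = 6 := by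
      rw [← hn5]
      exact P.card_eq_index_normalizer.symm
    have hNcard : Nat.card N = 10 := by
      have h1 := N.card_mul_index
      rw [hNidx, hX] at h1
      omega
    have hrel : L.relIndex (N ⊔ L) = L.relIndex N := Subgroup.relIndex_sup_right N L
    rw [hFr, Subgroup.relIndex_top_right] at hrel
    -- `|X : L| = |N : N ∩ L|`
    have h2 : Nat.card ((L.subgroupOf N : Subgroup N)) * L.relIndex N = 10 := by
      have h3 := (L.subgroupOf N).card_mul_index
      rw [hNcard] at h3
      exact h3
    have h3 : Nat.card L * L.index = 60 := by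
      rw [← hX]
      exact L.card_mul_index
    -- `P` lies in `N ∩ L`
    have h4 : 5 ∣ Nat.card (L.subgroupOf N) := by
      have h5' : (P : Subgroup X) ≤ N := Subgroup.le_normalizer
      have h6 : (P : Subgroup X).subgroupOf N ≤ L.subgroupOf N := fun a ha => hPL ha
      have h7 : Nat.card ((P : Subgroup X).subgroupOf N) = 5 :=
        (Nat.card_congr (Subgroup.subgroupOfEquivOfLe h5').toEquiv).trans (hcard5 P)
      rw [← h7]
      exact Subgroup.card_dvd_of_le h6
    obtain ⟨c, hc⟩ := h4
    have h10 : L.relIndex N = 1 ∨ L.relIndex N = 2 := by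
      rw [hc] at h2
      have h8 : c * L.relIndex N = 2 := by
        have : 5 * (c * L.relIndex N) = 5 * 2 := by
          rw [← mul_assoc]
          exact h2
        exact Nat.eq_of_mul_eq_mul_left (by norm_num) this
      have h9 : L.relIndex N ∣ 2 := ⟨c, by rw [← h8, mul_comm]⟩
      exact (Nat.dvd_prime Nat.prime_two).mp h9
    rcases h10 with h1 | h2'
    · rw [← hrel] at h1
      exact Subgroup.index_eq_one.mp h1
    · exfalso
      rw [← hrel] at h2'
      rw [h2'] at h3
      have hL30 : Nat.card L = 30 := by omega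
      have hP' : (P.subtype hPL : Subgroup L).Normal :=
        normal_sylow5_thirty hL30 _
      have h8 := normal_map_of_normal_sylow L (P.subtype hPL) hP'
      have h9 : ((P.subtype hPL : Subgroup L).map L.subtype) = P := by
        rw [Sylow.coe_subtype, Subgroup.subgroupOf_map_subtype]
        exact inf_eq_left.mpr hPL
      rw [h9] at h8
      exact h5 P h8
  -- a proper nontrivial normal subgroup has order 12
  have h12 : ∀ M : Subgroup X, M.Normal → M ≠ ⊥ → M ≠ ⊤ → Nat.card M = 12 := by
    intro M hM hb ht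
    have hn5M : ¬ 5 ∣ Nat.card M := fun h => ht (hStar M hM h)
    have hcM : Nat.card M * M.index = 60 := by
      rw [← hX]
      exact M.card_mul_index
    have hQ : Nat.card (X ⧸ M) = M.index := rfl
    have hne1 : Nat.card M ≠ 1 := by
      intro h
      exact hb (Subgroup.card_eq_one.mp h)
    have hidx5 : 5 ∣ M.index := by
      have h1 : 5 ∣ Nat.card M * M.index := by rw [hcM]; norm_num
      exact (Nat.Prime.dvd_mul hp5.out).mp h1 |>.resolve_left hn5M
    obtain ⟨k, hk⟩ := hidx5
    have hk' : Nat.card M * k = 12 := by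
      rw [hk] at hcM
      have : 5 * (Nat.card M * k) = 5 * 12 := by
        rw [show 5 * (Nat.card M * k) = Nat.card M * (5 * k) by ring, hcM]
      exact Nat.eq_of_mul_eq_mul_left (by norm_num) this
    have hMd : Nat.card M ∣ 12 := ⟨k, hk'.symm⟩
    have hkd : k ∣ 12 := ⟨Nat.card M, by rw [← hk', mul_comm]⟩
    have hk6 : k ≤ 6 := by
      by_contra hc
      push Not at hc
      have h13 : k = 12 := by
        have := Nat.le_of_dvd (by norm_num) hkd
        have h3 : k ≠ 7 ∧ k ≠ 8 ∧ k ≠ 9 ∧ k ≠ 10 ∧ k ≠ 11 := by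
          refine ⟨?_, ?_, ?_, ?_, ?_⟩ <;> (intro h; rw [h] at hkd; revert hkd; decide)
        omega
      rw [h13] at hk'
      omega
    have hkpos : 0 < k := Nat.pos_of_ne_zero (by rintro rfl; simp at hk')
    -- the Sylow subgroup of the quotient is normal
    obtain ⟨T⟩ : Nonempty (Sylow 5 (X ⧸ M)) := inferInstance
    have hQc : Nat.card (X ⧸ M) = 5 * k := by rw [hQ, hk]
    have hTn : (T : Subgroup (X ⧸ M)).Normal := by
      by_cases h6 : k = 6
      · exact normal_sylow5_thirty (by rw [hQc, h6]) T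
      · refine normal_sylow_of_card hQc (by omega) ?_ T
        intro hd
        have := Nat.le_of_dvd hkpos hd
        have h5k : k = 5 := by omega
        rw [h5k] at hkd
        revert hkd
        decide
    let L : Subgroup X := (T : Subgroup (X ⧸ M)).comap (QuotientGroup.mk' M)
    have hLn : L.Normal := hTn.comap _
    have hLidx : L.index = (T : Subgroup (X ⧸ M)).index :=
      Subgroup.index_comap_of_surjective _ (QuotientGroup.mk'_surjective M)
    have hkne5 : ¬ 5 ∣ k := by
      intro hd
      have := Nat.le_of_dvd hkpos hd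
      have h5k : k = 5 := by omega
      rw [h5k] at hkd
      revert hkd
      decide
    have hTidx : (T : Subgroup (X ⧸ M)).index = k :=
      index_sylow_eq (by rw [hQc, pow_one]) hkne5 T
    have hLc : Nat.card L * k = 60 := by
      rw [← hX, ← hTidx, ← hLidx]
      exact L.card_mul_index
    have hL5 : 5 ∣ Nat.card L := by
      have h1 : 5 ∣ Nat.card L * k := by rw [hLc]; norm_num
      exact (Nat.Prime.dvd_mul hp5.out).mp h1 |>.resolve_right hkne5
    have hLtop := hStar L hLn hL5
    have hk1 : k = 1 := by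
      rw [← hTidx, ← hLidx, hLtop, Subgroup.index_top]
    rw [hk1, mul_one] at hk'
    exact hk'
  -- the final step
  have hnt : Nontrivial X := by
    refine Finite.one_lt_card_iff_nontrivial.mp ?_
    rw [hX]
    norm_num
  refine ⟨fun M hM => ?_⟩
  by_contra hcon
  push Not at hcon
  obtain ⟨hb, ht⟩ := hcon
  have hM12 := h12 M hM hb ht
  have h2f : Fact (Nat.Prime 2) := ⟨Nat.prime_two⟩
  have h3f : Fact (Nat.Prime 3) := ⟨by norm_num⟩
  have hsmall : ∀ (p : ℕ) [Fact p.Prime] (Y : Subgroup M), Y.Normal → (Nat.card Y = 3 ∧ p = 3 ∨ Nat.card Y = 4 ∧ p = 2) →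
      False := by
    intro p _ Y hY hc
    have hcY : Nat.card Y = p ^ (Nat.card M).factorization p := by
      rw [hM12]
      rcases hc with ⟨h1, rfl⟩ | ⟨h1, rfl⟩
      · rw [h1, show (12 : ℕ) = 2 ^ 2 * 3 ^ 1 by norm_num,
          Nat.factorization_mul (by norm_num) (by norm_num), Nat.factorization_pow, Nat.factorization_pow]
        simp [Nat.Prime.factorization (show Nat.Prime 2 by norm_num), Nat.Prime.factorization (show Nat.Prime 3 by norm_num)]
      · rw [h1, show (12 : ℕ) = 2 ^ 2 * 3 ^ 1 by norm_num,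
          Nat.factorization_mul (by norm_num) (by norm_num), Nat.factorization_pow, Nat.factorization_pow]
        simp [Nat.Prime.factorization (show Nat.Prime 2 by norm_num), Nat.Prime.factorization (show Nat.Prime 3 by norm_num)]
    let Y' : Sylow p M := Sylow.ofCard Y hcY
    have hY' : (Y' : Subgroup M).Normal := by
      rw [Sylow.coe_ofCard]
      exact hY
    have hn := normal_map_of_normal_sylow M Y' hY'
    have hmc : Nat.card ((Y' : Subgroup M).map M.subtype) = Nat.card Y := by
      rw [Sylow.coe_ofCard]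
      exact Nat.card_congr (Y.equivMapOfInjective _ M.subtype_injective).toEquiv.symm
    have hb₁ : (Y' : Subgroup M).map M.subtype ≠ ⊥ := by
      intro h
      rw [h, Subgroup.card_bot] at hmc
      rcases hc with ⟨h1, -⟩ | ⟨h1, -⟩ <;> omega
    have ht₁ : (Y' : Subgroup M).map M.subtype ≠ ⊤ := by
      intro h
      rw [h, Subgroup.card_top, hX] at hmc
      rcases hc with ⟨h1, -⟩ | ⟨h1, -⟩ <;> omega
    have h₁ := h12 _ hn hb₁ ht₁
    rw [hmc] at h₁
    rcases hc with ⟨h1, -⟩ | ⟨h1, -⟩ <;> omega
  rcases order12_normal hM12 with ⟨Q, hQ3, hQn⟩ | ⟨V, hV4, hVn⟩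
  · exact hsmall 3 Q hQn (Or.inl ⟨hQ3, rfl⟩)
  · exact hsmall 2 V hVn (Or.inr ⟨hV4, rfl⟩)

end BAux

open BAux in
/-- **Piece B.** -/
theorem cent_iso {C : Type*} [Group C] [Finite C] (hC : Nat.card C = 120) (t : C) (ht : orderOf t = 2)
    (hz : ∀ x : C, x * t = t * x) (S : Sylow 2 C) (hS : ∀ x ∈ (S : Subgroup C), x ^ 2 = 1)
    (h5 : ∀ Q : Subgroup C, Nat.card Q = 5 → ¬ Q.Normal) :
    Nonempty (C ≃* Multiplicative (ZMod 2) × alternatingGroup (Fin 5)) := by
  classical
  have h2f : Fact (Nat.Prime 2) := ⟨Nat.prime_two⟩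
  have hp5 : Fact (Nat.Prime 5) := ⟨by norm_num⟩
  set Z := Subgroup.zpowers t with hZ
  have hZc : Nat.card Z = 2 := by rw [hZ, Nat.card_zpowers, ht]
  have hZcent : ∀ z ∈ Z, ∀ x : C, x * z = z * x := by
    rintro _ ⟨k, rfl⟩ x
    exact ((show Commute x t from hz x).zpow_right k).eq
  haveI hZn : Z.Normal := by
    constructor
    intro n hn g
    rw [hZcent n hn g, mul_inv_cancel_right]
    exact hn
  have hX : Nat.card (C ⧸ Z) = 60 := by
    have h1 := Subgroup.card_eq_card_quotient_mul_card_subgroup Z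
    rw [hC, hZc] at h1
    omega
  -- the quotient has no normal Sylow 5-subgroup
  have hXn : ∀ P : Sylow 5 (C ⧸ Z), ¬ (P : Subgroup (C ⧸ Z)).Normal := by
    intro P hP
    let W : Subgroup C := (P : Subgroup (C ⧸ Z)).comap (QuotientGroup.mk' Z)
    have hWn : W.Normal := hP.comap _
    have hPc : Nat.card (P : Subgroup (C ⧸ Z)) = 5 := by
      simpa using Cfsg.Agent.Lib.Small.Sieve.card_sylow_eq (p := 5) (k := 1) (m := 12) (by rw [hX]; norm_num)
        (by norm_num) P
    have hPi : (P : Subgroup (C ⧸ Z)).index = 12 :=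
      Cfsg.Agent.Lib.Small.Sieve.index_sylow_eq (p := 5) (k := 1) (m := 12) (by rw [hX]; norm_num) (by norm_num) P
    have hWi : W.index = 12 := by
      rw [← hPi]
      exact Subgroup.index_comap_of_surjective _ (QuotientGroup.mk'_surjective Z)
    have hWc : Nat.card W = 10 := by
      have h1 := W.card_mul_index
      rw [hWi, hC] at h1
      omega
    obtain ⟨Q⟩ : Nonempty (Sylow 5 W) := inferInstance
    have hQn : (Q : Subgroup W).Normal :=
      Cfsg.Agent.Lib.SmallSimple.G168e.normal_sylow_of_card (p := 5) (m := 2) (by rw [hWc]) (by norm_num)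
        (by norm_num) Q
    have hQc : Nat.card (Q : Subgroup W) = 5 := by
      simpa using Cfsg.Agent.Lib.Small.Sieve.card_sylow_eq (p := 5) (k := 1) (m := 2) (by rw [hWc]; norm_num)
        (by norm_num) Q
    have h1 := normal_map_of_normal_sylow W Q hQn
    refine h5 _ ?_ h1
    exact (Nat.card_congr ((Q : Subgroup W).equivMapOfInjective _ W.subtype_injective).toEquiv.symm).trans hQc
  haveI hXs : IsSimpleGroup (C ⧸ Z) := isSimple_of_sixty hX hXn
  obtain ⟨e⟩ := Cfsg.Agent.S0494.result hX
  have hA : Nat.card (alternatingGroup (Fin 5)) = 60 := by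
    rw [← hX]
    exact Nat.card_congr e.toEquiv.symm
  -- transfer: `t` is not a commutator
  have hSab : ∀ a b : (S : Subgroup C), a * b = b * a := by
    intro a b
    have h1 : ∀ x : (S : Subgroup C), x * x = 1 := fun x => by
      apply Subtype.ext
      have := hS x.1 x.2
      simpa [pow_two] using this
    have h2 := h1 (a * b)
    calc a * b = a * (a * b * (a * b)) * b := by rw [h2]; group
      _ = (a * a) * b * (a * b) * b := by group
      _ = b * (a * (b * b)) := by rw [h1 a]; group
      _ = b * a := by rw [h1 b, mul_one]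
  letI instS : CommGroup (S : Subgroup C) := { (inferInstance : Group (S : Subgroup C)) with mul_comm := hSab }
  have htS : t ∈ (S : Subgroup C) := by
    have hZ2 : IsPGroup 2 Z := by
      refine IsPGroup.of_card (n := 1) ?_
      rw [hZc, pow_one]
    have h1 : IsPGroup 2 ((S : Subgroup C) ⊔ Z : Subgroup C) := IsPGroup.to_sup_of_normal_right S.isPGroup' hZ2
    have h2 := S.is_maximal' h1 le_sup_left
    rw [← h2]
    exact (le_sup_right : Z ≤ (S : Subgroup C) ⊔ Z) (Subgroup.mem_zpowers t)
  let V : C →* (S : Subgroup C) := MonoidHom.transfer (MonoidHom.id (S : Subgroup C))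
  have hVt : V t = ⟨t, htS⟩ := by
    have key : ∀ (k : ℕ) (g₀ : C), g₀⁻¹ * t ^ k * g₀ ∈ (S : Subgroup C) → g₀⁻¹ * t ^ k * g₀ = t ^ k := by
      intro k g₀ _
      have h1 : Commute g₀ (t ^ k) := (show Commute g₀ t from hz g₀).pow_right k
      rw [mul_assoc, ← h1.eq]
      group
    have h1 := MonoidHom.transfer_eq_pow (MonoidHom.id (S : Subgroup C)) t key
    have hodd : Odd (S : Subgroup C).index := by
      have h2 := S.not_dvd_index
      exact Nat.odd_iff.mpr (by omega)
    obtain ⟨m, hm⟩ := hodd
    have ht2 : t ^ 2 = 1 := by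
      rw [← ht]
      exact pow_orderOf_eq_one t
    have h3 : t ^ (S : Subgroup C).index = t := by
      rw [hm, pow_succ, pow_mul, ht2, one_pow, one_mul]
    change MonoidHom.transfer (MonoidHom.id (S : Subgroup C)) t = _
    rw [h1]
    exact Subtype.ext h3
  have htL : t ∉ commutator C := by
    intro h
    have h1 : commutator C ≤ V.ker := Abelianization.commutator_subset_ker V
    have h2 := h1 h
    rw [MonoidHom.mem_ker, hVt] at h2
    have h3 : t = 1 := congrArg Subtype.val h2
    rw [h3, orderOf_one] at ht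
    omega
  -- `C = C' Z`
  set L := commutator C with hLdef
  haveI hLn : L.Normal := inferInstance
  have hXcomm : commutator (C ⧸ Z) = ⊤ := by
    have h1 := (inferInstance : IsSimpleGroup (C ⧸ Z)).eq_bot_or_eq_top_of_normal _
      (inferInstance : (commutator (C ⧸ Z)).Normal)
    refine h1.resolve_left ?_
    intro hb
    have hc : ∀ a b : C ⧸ Z, a * b = b * a := by
      intro a b
      have h2 : ⁅a, b⁆ ∈ commutator (C ⧸ Z) :=
        Subgroup.commutator_mem_commutator (by trivial) (by trivial)
      rw [hb, Subgroup.mem_bot, commutatorElement_eq_one_iff_commute] at h2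
      exact h2.eq
    have h4 : ¬ (Nat.card (C ⧸ Z)).Prime := by
      rw [hX]
      norm_num
    exact Cfsg.Agent.Lib.Small.Basic.not_comm_of_not_prime h4 ⟨⟨hc⟩⟩
  have hmap : (commutator C).map (QuotientGroup.mk' Z) = commutator (C ⧸ Z) := by
    rw [commutator_def, commutator_def, Subgroup.map_commutator,
      Subgroup.map_top_of_surjective _ (QuotientGroup.mk'_surjective Z)]
  have hsup : Z ⊔ L = ⊤ := by
    rw [eq_top_iff]
    intro x _
    have h1 : (x : C ⧸ Z) ∈ (commutator C).map (QuotientGroup.mk' Z) := by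
      rw [hmap, hXcomm]
      trivial
    obtain ⟨l, hl, hle⟩ := h1
    have h2 : l⁻¹ * x ∈ Z := QuotientGroup.eq.mp hle
    have e1 : x = l * (l⁻¹ * x) := by group
    rw [e1]
    exact Subgroup.mul_mem _ ((le_sup_right : L ≤ Z ⊔ L) hl) ((le_sup_left : Z ≤ Z ⊔ L) h2)
  have hLidx : L.index = 2 := by
    have hrel : L.relIndex (Z ⊔ L) = L.relIndex Z := Subgroup.relIndex_sup_right Z L
    rw [hsup, Subgroup.relIndex_top_right] at hrel
    have h1 : L.relIndex Z ∣ Nat.card Z := Subgroup.relIndex_dvd_card L Z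
    rw [hZc, ← hrel] at h1
    rcases (Nat.dvd_prime Nat.prime_two).mp h1 with h2 | h2
    · exfalso
      have h3 : L = ⊤ := Subgroup.index_eq_one.mp h2
      apply htL
      rw [h3]
      trivial
    · exact h2
  have hQ2 : Nat.card (C ⧸ L) = 2 := hLidx
  have hM2 : Nat.card (Multiplicative (ZMod 2)) = 2 := by simp
  let e₂ : (C ⧸ L) ≃* Multiplicative (ZMod 2) := mulEquivOfPrimeCardEq hQ2 hM2
  let Φ : C →* Multiplicative (ZMod 2) × alternatingGroup (Fin 5) :=
    MonoidHom.prod (e₂.toMonoidHom.comp (QuotientGroup.mk' L)) (e.toMonoidHom.comp (QuotientGroup.mk' Z))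
  have hinj : Function.Injective Φ := by
    rw [injective_iff_map_eq_one]
    intro x hx
    have h1 : e₂ (x : C ⧸ L) = 1 := congrArg Prod.fst hx
    have h2 : e (x : C ⧸ Z) = 1 := congrArg Prod.snd hx
    have h3 : (x : C ⧸ L) = 1 := by simpa using h1
    have h4 : (x : C ⧸ Z) = 1 := by simpa using h2
    have h5' : x ∈ L := (QuotientGroup.eq_one_iff x).mp h3
    have h6 : x ∈ Z := (QuotientGroup.eq_one_iff x).mp h4
    obtain ⟨k, rfl⟩ := Subgroup.mem_zpowers_iff.mp h6
    have ht2 : t ^ 2 = 1 := by
      rw [← ht]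
      exact pow_orderOf_eq_one t
    rcases Int.even_or_odd' k with ⟨m, rfl | rfl⟩
    · rw [zpow_mul, zpow_ofNat, ht2, one_zpow]
    · exfalso
      apply htL
      rw [zpow_add, zpow_mul, zpow_ofNat, ht2, one_zpow, one_mul, zpow_one] at h5'
      exact h5'
  have hbij : Function.Bijective Φ := by
    refine (Nat.bijective_iff_injective_and_card Φ).mpr ⟨hinj, ?_⟩
    rw [Nat.card_prod, hM2, hA, hC]
  exact ⟨MulEquiv.ofBijective Φ hbij⟩

end Cfsg.Agent.Lib.U175
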