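import Mathlib
import Cfsg.Agent.Lib.FG7.FrobeniusCount

/-!
# The count in the dihedral case for simple groups of order 175560.
-/

set_option autoImplicit false

namespace Cfsg.Agent.Lib.U175.D1Aux

open Subgroup

/-- Conjugate a Sylow subgroup onto another. -/
theorem sylow_conj {X : Type*} [Group X] [Finite X] {p : ℕ} [Fact p.Prime] (P S : Sylow p X) :
    ∃ g : X, ∀ x ∈ (P : Subgroup X), g * x * g⁻¹ ∈ (S : Subgroup X) := by
  obtain ⟨g, hg⟩ := MulAction.exists_smul_eq X P S
  refine ⟨g, fun x hx => ?_⟩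
  rw [← hg]
  have : g * x * g⁻¹ = MulAut.conj g • x := rfl
  rw [this, Sylow.coe_subgroup_smul]
  exact Subgroup.smul_mem_pointwise_smul _ _ _ hx

/-- Conjugate a Sylow subgroup onto another, with the converse. -/
theorem sylow_conj' {X : Type*} [Group X] [Finite X] {p : ℕ} [Fact p.Prime] (P S : Sylow p X) :
    ∃ g : X, (∀ x ∈ (P : Subgroup X), g * x * g⁻¹ ∈ (S : Subgroup X)) ∧
      ∀ y ∈ (S : Subgroup X), g⁻¹ * y * g ∈ (P : Subgroup X) := by
  obtain ⟨g, hg⟩ := MulAction.exists_smul_eq X P S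
  refine ⟨g, fun x hx => ?_, fun y hy => ?_⟩
  · rw [← hg]
    have : g * x * g⁻¹ = MulAut.conj g • x := rfl
    rw [this, Sylow.coe_subgroup_smul]
    exact Subgroup.smul_mem_pointwise_smul _ _ _ hx
  · rw [← hg, Sylow.coe_subgroup_smul] at hy
    have h2 := (Subgroup.mem_pointwise_smul_iff_inv_smul_mem).mp hy
    have h3 : (MulAut.conj g)⁻¹ • y = g⁻¹ * y * g := by
      show (MulAut.conj g)⁻¹ y = _
      simp
    rwa [h3] at h2

/-- A `p`-element is conjugate into any Sylow subgroup. -/
theorem conj_into {X : Type*} [Group X] [Finite X] {p : ℕ} [Fact p.Prime] (S : Sylow p X) {x : X}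
    {k : ℕ} (hx : x ^ (p ^ k) = 1) : ∃ c : X, c * x * c⁻¹ ∈ (S : Subgroup X) := by
  have hpp : p.Prime := Fact.out
  obtain ⟨j, -, hj⟩ := (Nat.dvd_prime_pow hpp).mp (orderOf_dvd_of_pow_eq_one hx)
  have hP : IsPGroup p (zpowers x) := IsPGroup.of_card (n := j) (by rw [Nat.card_zpowers, hj])
  obtain ⟨Q, hQ⟩ := hP.exists_le_sylow
  obtain ⟨g, hg⟩ := sylow_conj Q S
  exact ⟨g, hg x (hQ (mem_zpowers x))⟩

variable {G : Type*} [Group G] [Finite G]

section desc

variable {r s : G} {S : Subgroup G}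

/-- Elements of a group of order `8` containing `r, s` (dihedral relations). -/
theorem desc (hcS : Nat.card S = 8) (hrS : r ∈ S) (hsS : s ∈ S) (hr : orderOf r = 4)
    (hs : orderOf s = 2) (hsr : s * r * s⁻¹ = r⁻¹) :
    ∀ x ∈ S, ∃ i : ℕ, i < 4 ∧ (x = r ^ i ∨ x = r ^ i * s) := by
  have hrne : r * r ≠ 1 := by
    intro h
    have : orderOf r ≤ 2 := orderOf_le_of_pow_eq_one (by norm_num) (by rw [pow_two]; exact h)
    omega
  let f : Fin 4 × Bool → S := fun p =>
    if p.2 then ⟨r ^ (p.1 : ℕ) * s, S.mul_mem (S.pow_mem hrS _) hsS⟩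
    else ⟨r ^ (p.1 : ℕ), S.pow_mem hrS _⟩
  have hpinj : ∀ {i j : Fin 4}, r ^ (i : ℕ) = r ^ (j : ℕ) → i = j := by
    intro i j h
    have h8 := pow_injOn_Iio_orderOf (x := r)
      (show (i : ℕ) ∈ Set.Iio (orderOf r) by
        have := i.2
        simp only [Set.mem_Iio]; omega)
      (show (j : ℕ) ∈ Set.Iio (orderOf r) by
        have := j.2
        simp only [Set.mem_Iio]; omega) h
    exact Fin.ext h8
  have hbad : ∀ i j : ℕ, r ^ i ≠ r ^ j * s := by
    intro i j h
    have h3 : s = (r ^ j)⁻¹ * r ^ i := by rw [h]; group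
    have h4 : Commute s r := by
      rw [h3]
      exact ((Commute.refl r).pow_left j).inv_left.mul_left ((Commute.refl r).pow_left i)
    have h5 : s * r * s⁻¹ = r := by rw [h4.eq]; group
    rw [h5] at hsr
    apply hrne
    nth_rewrite 1 [hsr]
    group
  have hf : Function.Injective f := by
    rintro ⟨i, e⟩ ⟨j, e'⟩ h
    have h2 := congrArg Subtype.val h
    cases e <;> cases e' <;> simp only [f, Bool.false_eq_true, if_false, if_true] at h2
    · rw [hpinj h2]
    · exact absurd h2 (hbad _ _)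
    · exact absurd h2.symm (hbad _ _)
    · rw [hpinj (mul_right_cancel h2)]
  have hb := hf.bijective_of_nat_card_le (by
    rw [hcS]; simp [Nat.card_eq_fintype_card])
  intro x hx
  obtain ⟨⟨i, e⟩, he⟩ := hb.2 ⟨x, hx⟩
  refine ⟨i, i.2, ?_⟩
  have h2 := congrArg Subtype.val he
  cases e
  · left; simpa [f] using h2.symm
  · right; simpa [f] using h2.symm

theorem sq_desc (hr : orderOf r = 4) (hs : orderOf s = 2) (hsr : s * r * s⁻¹ = r⁻¹) {x : G}
    (hx : ∃ i : ℕ, i < 4 ∧ (x = r ^ i ∨ x = r ^ i * s)) :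
    x ^ 2 = 1 ∨ x = r ∨ x = r⁻¹ := by
  have hr4 : r ^ 4 = 1 := by rw [← hr]; exact pow_orderOf_eq_one r
  have hss : s * s = 1 := by
    have := pow_orderOf_eq_one s
    rwa [hs, pow_two] at this
  have hsinv : s⁻¹ = s := by rw [inv_eq_iff_mul_eq_one]; exact hss
  have hr3 : r ^ 3 = r⁻¹ := by
    rw [eq_inv_iff_mul_eq_one, ← pow_succ]; exact hr4
  obtain ⟨i, hi, rfl | rfl⟩ := hx
  · interval_cases i
    · left; simp
    · right; left; simp
    · left; rw [← pow_mul]; exact hr4
    · right; right; exact hr3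
  · left
    have h1 : s * r ^ i * s⁻¹ = (r ^ i)⁻¹ := by
      rw [← conj_pow, hsr, inv_pow]
    have h2 : s * r ^ i * s = (r ^ i)⁻¹ := by rw [← h1, hsinv]
    rw [pow_two]
    calc r ^ i * s * (r ^ i * s) = r ^ i * (s * r ^ i * s) := by group
      _ = 1 := by rw [h2]; group

end desc

open Cfsg.Agent.Lib.FG7.FrobeniusCount in
theorem count_eq (h1 : ∀ x y : G, orderOf x = 2 → orderOf y = 2 → ∃ g : G, g * x * g⁻¹ = y)
    {t : G} (ht : orderOf t = 2) (h4 : ∀ x : G, x ^ 8 = 1 → x ^ 4 = 1) :
    Nat.card {x : G // x ^ 8 = 1} =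
      1 + (centralizer ({t} : Set G)).index * (1 + Nat.card {x : G // x ^ 2 = t}) := by
  classical
  haveI : Fintype G := Fintype.ofFinite G
  have hT : Nat.card {x : G // orderOf x = 2} = (centralizer ({t} : Set G)).index := by
    rw [← card_isConj_eq_index t]
    apply Nat.card_congr
    refine Equiv.subtypeEquivRight (fun x => ?_)
    constructor
    · intro hx
      obtain ⟨g, hg⟩ := h1 t x ht hx
      exact isConj_iff.mpr ⟨g, hg⟩
    · intro h
      obtain ⟨g, hg⟩ := isConj_iff.mp h
      have h3 : g * t * g⁻¹ = MulAut.conj g t := by simp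
      rw [← hg, h3, MulEquiv.orderOf_eq, ht]
  -- squaring map
  have hsqord : ∀ x : G, orderOf x = 4 → orderOf (x ^ 2) = 2 := by
    intro x hx
    rw [orderOf_pow_of_dvd (by norm_num) (by rw [hx]; norm_num), hx]
  have hord4 : ∀ x u : G, orderOf u = 2 → x ^ 2 = u → orderOf x = 4 := by
    intro x u hu hxu
    have h2 : (4 : ℕ) = 2 ^ (1 + 1) := by norm_num
    rw [h2]
    haveI : Fact (Nat.Prime 2) := ⟨Nat.prime_two⟩
    apply orderOf_eq_prime_pow
    · intro h
      have : x ^ 2 = 1 := by simpa using h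
      rw [hxu] at this
      rw [this, orderOf_one] at hu
      omega
    · have h3 : x ^ 2 ^ (1 + 1) = (x ^ 2) ^ 2 := by rw [← pow_mul]; norm_num
      rw [h3, hxu, ← hu]
      exact pow_orderOf_eq_one u
  let f : {x : G // orderOf x = 4} → {x : G // orderOf x = 2} :=
    fun x => ⟨x.1 ^ 2, hsqord x.1 x.2⟩
  have hfib : ∀ u : {x : G // orderOf x = 2}, Nat.card {x : {x : G // orderOf x = 4} // f x = u} =
      Nat.card {x : G // x ^ 2 = t} := by
    intro u
    obtain ⟨g, hg⟩ := h1 u.1 t u.2 ht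
    apply Nat.card_congr
    refine
      { toFun := fun x => ⟨g * x.1.1 * g⁻¹, ?_⟩
        invFun := fun x => ⟨⟨g⁻¹ * x.1 * g, ?_⟩, ?_⟩
        left_inv := ?_
        right_inv := ?_ }
    · have h2 : x.1.1 ^ 2 = u.1 := congrArg Subtype.val x.2
      rw [conj_pow, h2, hg]
    · apply hord4 _ u.1 u.2
      have h3 : (g⁻¹ * x.1 * g) ^ 2 = g⁻¹ * x.1 ^ 2 * g := by
        have := conj_pow (a := g⁻¹) (b := x.1) (i := 2)
        simpa using this
      rw [h3, x.2, ← hg]
      group
    · apply Subtype.ext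
      show (g⁻¹ * x.1 * g) ^ 2 = u.1
      have h3 : (g⁻¹ * x.1 * g) ^ 2 = g⁻¹ * x.1 ^ 2 * g := by
        have := conj_pow (a := g⁻¹) (b := x.1) (i := 2)
        simpa using this
      rw [h3, x.2, ← hg]
      group
    · intro x
      apply Subtype.ext
      apply Subtype.ext
      show g⁻¹ * (g * x.1.1 * g⁻¹) * g = x.1.1
      group
    · intro x
      apply Subtype.ext
      show g * (g⁻¹ * x.1 * g) * g⁻¹ = x.1
      group
  have hU : Nat.card {x : G // orderOf x = 4} =
      (centralizer ({t} : Set G)).index * Nat.card {x : G // x ^ 2 = t} := by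
    rw [← Nat.card_congr (Equiv.sigmaFiberEquiv f), Nat.card_sigma]
    simp_rw [hfib]
    rw [Finset.sum_const, Finset.card_univ, ← Nat.card_eq_fintype_card, hT]
    simp
  have hset : {x : G | x ^ 8 = 1} = {1} ∪ ({x : G | orderOf x = 2} ∪ {x : G | orderOf x = 4}) := by
    ext x
    simp only [Set.mem_ofPred_eq, Set.mem_union, Set.mem_singleton_iff]
    constructor
    · intro hx
      have h5 := h4 x hx
      have h6 : orderOf x ∣ 4 := orderOf_dvd_of_pow_eq_one h5
      have h7 : orderOf x ∈ Nat.divisors 4 := by simp [h6]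
      have h8 : Nat.divisors 4 = {1, 2, 4} := by decide
      rw [h8] at h7
      simp only [Finset.mem_insert, Finset.mem_singleton] at h7
      rcases h7 with h | h | h
      · left; exact orderOf_eq_one_iff.mp h
      · right; left; exact h
      · right; right; exact h
    · rintro (rfl | h | h)
      · simp
      · have : x ^ 2 = 1 := by rw [← h]; exact pow_orderOf_eq_one x
        calc x ^ 8 = (x ^ 2) ^ 4 := by rw [← pow_mul]
          _ = 1 := by rw [this, one_pow]
      · have : x ^ 4 = 1 := by rw [← h]; exact pow_orderOf_eq_one x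
        calc x ^ 8 = (x ^ 4) ^ 2 := by rw [← pow_mul]
          _ = 1 := by rw [this, one_pow]
  have hcard : Nat.card {x : G // x ^ 8 = 1} = Set.ncard {x : G | x ^ 8 = 1} :=
    Nat.card_coe_set_eq _
  rw [hcard, hset]
  have hdisj1 : Disjoint ({x : G | orderOf x = 2}) ({x : G | orderOf x = 4}) := by
    rw [Set.disjoint_left]
    intro x hx hx'
    simp only [Set.mem_ofPred_eq] at hx hx'
    omega
  have hdisj2 : Disjoint ({1} : Set G) ({x : G | orderOf x = 2} ∪ {x : G | orderOf x = 4}) := by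
    rw [Set.disjoint_left]
    rintro x rfl hx
    simp only [Set.mem_union, Set.mem_ofPred_eq, orderOf_one] at hx
    omega
  rw [Set.ncard_union_eq hdisj2 (Set.toFinite _) (Set.toFinite _),
    Set.ncard_union_eq hdisj1 (Set.toFinite _) (Set.toFinite _), Set.ncard_singleton]
  have h2 : Set.ncard {x : G | orderOf x = 2} = Nat.card {x : G // orderOf x = 2} :=
    (Nat.card_coe_set_eq _).symm
  have h3 : Set.ncard {x : G | orderOf x = 4} = Nat.card {x : G // orderOf x = 4} :=
    (Nat.card_coe_set_eq _).symm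
  rw [h2, h3, hT, hU]
  ring

end Cfsg.Agent.Lib.U175.D1Aux

namespace Cfsg.Agent.Lib.U175

open Subgroup D1Aux

variable {G : Type*} [Group G] [Finite G] [IsSimpleGroup G]

omit [IsSimpleGroup G] in
theorem d8_count_aux (hG : Nat.card G = 175560) (S : Sylow 2 G)
    (h1 : ∀ x y : G, orderOf x = 2 → orderOf y = 2 → ∃ g : G, g * x * g⁻¹ = y) {r s : G}
    (hrS : r ∈ S) (hsS : s ∈ S) (hr : orderOf r = 4) (hs : orderOf s = 2)
    (hsr : s * r * s⁻¹ = r⁻¹) :
    ∃ a : ℕ, a * Nat.card (centralizer ({r} : Set G)) = Nat.card (centralizer ({r ^ 2} : Set G)) ∧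
      4 ∣ Nat.card (centralizer ({r} : Set G)) ∧ ¬ 8 ∣ Nat.card (centralizer ({r} : Set G)) ∧
      8 ∣ 1 + (centralizer ({r ^ 2} : Set G)).index * (1 + a) := by
  classical
  haveI : Fact (Nat.Prime 2) := ⟨Nat.prime_two⟩
  have hprime2 : Nat.Prime 2 := Nat.prime_two
  have hfac : (175560 : ℕ).factorization 2 = 3 := by
    have h3 : (175560 : ℕ) = 2 ^ 3 * 21945 := by norm_num
    rw [h3, Nat.factorization_mul (by norm_num) (by norm_num), Nat.factorization_pow]
    simp [hprime2.factorization_self, Nat.factorization_eq_zero_of_not_dvd (show ¬ 2 ∣ 21945 by norm_num)]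
  have hS8 : Nat.card (S : Subgroup G) = 8 := by
    rw [S.card_eq_multiplicity, hG, hfac]; norm_num
  have hdesc := desc hS8 hrS hsS hr hs hsr
  have hH : ∀ x ∈ (S : Subgroup G), x ^ 2 = 1 ∨ x = r ∨ x = r⁻¹ :=
    fun x hx => sq_desc hr hs hsr (hdesc x hx)
  have hr4 : r ^ 4 = 1 := by rw [← hr]; exact pow_orderOf_eq_one r
  obtain ⟨t, htdef⟩ : ∃ t, t = r ^ 2 := ⟨_, rfl⟩
  rw [← htdef]
  have ht : orderOf t = 2 := by
    rw [htdef, orderOf_pow_of_dvd (by norm_num) (by rw [hr]; norm_num), hr]
  have ht1 : t ≠ 1 := by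
    intro h; rw [h, orderOf_one] at ht; omega
  have htt : t ^ 2 = 1 := by rw [← ht]; exact pow_orderOf_eq_one t
  have hrt : Commute r t := by
    rw [htdef]; exact (Commute.refl r).pow_right 2
  have hss : s * s = 1 := by
    have := pow_orderOf_eq_one s
    rwa [hs, pow_two] at this
  have hsinv : s⁻¹ = s := by rw [inv_eq_iff_mul_eq_one]; exact hss
  have hst : Commute s t := by
    have h2 : s * t * s⁻¹ = t := by
      rw [htdef, ← conj_pow, hsr, inv_pow]
      rw [inv_eq_iff_mul_eq_one, ← pow_add]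
      exact hr4
    show s * t = t * s
    calc s * t = s * t * s⁻¹ * s := by group
      _ = t * s := by rw [h2]
  have hSC : ∀ x ∈ (S : Subgroup G), x * t = t * x := by
    intro x hx
    obtain ⟨i, -, rfl | rfl⟩ := hdesc x hx
    · exact (hrt.pow_left i).eq
    · exact ((hrt.pow_left i).mul_left hst).eq
  have hy4 : ∀ y ∈ (S : Subgroup G), y ^ 4 = 1 := by
    intro y hy
    rcases hH y hy with h | rfl | rfl
    · calc y ^ 4 = (y ^ 2) ^ 2 := by rw [← pow_mul]
        _ = 1 := by rw [h, one_pow]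
    · exact hr4
    · rw [inv_pow, hr4, inv_one]
  have hx4 : ∀ x : G, x ^ 8 = 1 → x ^ 4 = 1 := by
    intro x hx
    obtain ⟨c, hc⟩ := conj_into S (x := x) (k := 3) (by simpa using hx)
    have h2 := hy4 _ hc
    rw [conj_pow] at h2
    have h3 : x ^ 4 = c⁻¹ * (c * x ^ 4 * c⁻¹) * c := by group
    rw [h3, h2]; group
  have memC : ∀ {d : G}, d * t = t * d → d ∈ centralizer ({t} : Set G) := by
    intro d hd
    rw [mem_centralizer_iff]
    intro h hh
    rw [Set.mem_singleton_iff] at hh
    subst hh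
    exact hd.symm
  have memC' : ∀ {d : G}, d ∈ centralizer ({t} : Set G) → d * t = t * d := by
    intro d hd
    rw [mem_centralizer_iff] at hd
    exact (hd t rfl).symm
  have hSle : (S : Subgroup G) ≤ centralizer ({t} : Set G) := fun x hx => memC (hSC x hx)
  -- the Sylow subgroup in `C`
  have hfC : (Nat.card (centralizer ({t} : Set G))).factorization 2 = 3 := by
    have hd1 : 2 ^ 3 ∣ Nat.card (centralizer ({t} : Set G)) := by
      have := Subgroup.card_dvd_of_le hSle
      rwa [hS8] at this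
    have hne : Nat.card (centralizer ({t} : Set G)) ≠ 0 := Nat.card_pos.ne'
    have hle := (hprime2.pow_dvd_iff_le_factorization hne).mp hd1
    have hd2 : Nat.card (centralizer ({t} : Set G)) ∣ 175560 := by
      rw [← hG]; exact Subgroup.card_subgroup_dvd_card _
    have hle2 := (Nat.factorization_le_iff_dvd hne (by norm_num)).mpr hd2 2
    rw [hfac] at hle2
    omega
  have hcS' : Nat.card ((S : Subgroup G).subgroupOf (centralizer ({t} : Set G))) =
      2 ^ (Nat.card (centralizer ({t} : Set G))).factorization 2 := by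
    rw [hfC, Nat.card_congr (subgroupOfEquivOfLe hSle).toEquiv, hS8]; norm_num
  let S' : Sylow 2 (centralizer ({t} : Set G)) := Sylow.ofCard _ hcS'
  have hrC : r ∈ centralizer ({t} : Set G) := memC hrt
  have hsC : s ∈ centralizer ({t} : Set G) := memC hst
  -- solutions of `x ^ 2 = t` are `C`-conjugates of `r`
  have hconjr : ∀ x : G, x ^ 2 = t → ∃ c ∈ centralizer ({t} : Set G), c * r * c⁻¹ = x := by
    intro x hx
    have hxC : x ∈ centralizer ({t} : Set G) := by
      apply memC
      rw [← hx]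
      exact ((Commute.refl x).pow_right 2).eq
    have hv : (⟨x, hxC⟩ : centralizer ({t} : Set G)) ^ (2 ^ 2) = 1 := by
      apply Subtype.ext
      show x ^ (2 ^ 2) = 1
      calc x ^ (2 ^ 2) = (x ^ 2) ^ 2 := by rw [← pow_mul]; norm_num
        _ = 1 := by rw [hx, htt]
    obtain ⟨c, hc⟩ := conj_into S' hv
    have hc' : (c : G) * x * (c : G)⁻¹ ∈ (S : Subgroup G) := by
      have := mem_subgroupOf.mp hc
      simpa using this
    have hcc : (c : G) * t = t * c := memC' c.2
    have hsq : ((c : G) * x * (c : G)⁻¹) ^ 2 = t := by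
      rw [conj_pow, hx, hcc]; group
    rcases hH _ hc' with h | h | h
    · rw [hsq] at h; exact absurd h ht1
    · refine ⟨(c : G)⁻¹, inv_mem c.2, ?_⟩
      rw [← h]; group
    · refine ⟨(c : G)⁻¹ * s, mul_mem (inv_mem c.2) hsC, ?_⟩
      have h3 : ((c : G)⁻¹ * s) * r * ((c : G)⁻¹ * s)⁻¹ = (c : G)⁻¹ * (s * r * s⁻¹) * c := by group
      rw [h3, hsr, ← h]; group
  -- the number of square roots of `t`
  refine ⟨Nat.card {x : G // x ^ 2 = t}, ?_, ?_, ?_, ?_⟩
  · let v : centralizer ({t} : Set G) := ⟨r, hrC⟩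
    have hCrle : centralizer ({r} : Set G) ≤ centralizer ({t} : Set G) := by
      intro x hx
      apply memC
      have h2 : x * r = r * x := (mem_centralizer_iff.mp hx r rfl).symm
      rw [htdef]
      exact ((show Commute x r from h2).pow_right 2).eq
    have hKeq : centralizer ({v} : Set (centralizer ({t} : Set G))) =
        (centralizer ({r} : Set G)).subgroupOf (centralizer ({t} : Set G)) := by
      ext x
      rw [mem_subgroupOf, mem_centralizer_iff, mem_centralizer_iff]
      constructor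
      · intro h y hy
        rw [Set.mem_singleton_iff] at hy
        subst hy
        have := h v rfl
        exact congrArg Subtype.val this
      · intro h y hy
        rw [Set.mem_singleton_iff] at hy
        subst hy
        apply Subtype.ext
        exact h r rfl
    have hidx := Subgroup.index_mul_card
      ((centralizer ({r} : Set G)).subgroupOf (centralizer ({t} : Set G)))
    rw [Nat.card_congr (subgroupOfEquivOfLe hCrle).toEquiv, ← hKeq,
      ← Cfsg.Agent.Lib.FG7.FrobeniusCount.card_isConj_eq_index v] at hidx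
    rw [← hidx]
    congr 1
    apply Nat.card_congr
    have hf : ∀ w : {w : centralizer ({t} : Set G) // IsConj v w}, (w.1 : G) ^ 2 = t := by
      rintro ⟨w, hw⟩
      obtain ⟨c, hc⟩ := isConj_iff.mp hw
      have h2 : (w : G) = (c : G) * r * (c : G)⁻¹ := by rw [← hc]; rfl
      show (w : G) ^ 2 = t
      rw [h2, conj_pow, ← htdef, memC' c.2]; group
    refine (Equiv.ofBijective (fun w => (⟨(w.1 : G), hf w⟩ : {x : G // x ^ 2 = t})) ⟨?_, ?_⟩).symm
    · rintro ⟨w, _⟩ ⟨w', _⟩ h
      have h2 : (w : G) = (w' : G) := congrArg (Subtype.val (p := fun x : G => x ^ 2 = t)) h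
      apply Subtype.ext
      apply Subtype.ext
      exact h2
    · rintro ⟨x, hx⟩
      obtain ⟨c, hc, hcx⟩ := hconjr x hx
      have hxC : x ∈ centralizer ({t} : Set G) := by
        rw [← hcx]; exact mul_mem (mul_mem hc hrC) (inv_mem hc)
      exact ⟨⟨⟨x, hxC⟩, isConj_iff.mpr ⟨⟨c, hc⟩, Subtype.ext hcx⟩⟩, rfl⟩
  · have hmem : r ∈ centralizer ({r} : Set G) := by
      rw [mem_centralizer_iff]
      intro h hh
      rw [Set.mem_singleton_iff] at hh
      subst hh
      rfl
    have := Subgroup.orderOf_dvd_natCard _ hmem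
    rwa [hr] at this
  · intro h8
    have hrCr : r ∈ centralizer ({r} : Set G) := by
      rw [mem_centralizer_iff]
      intro h hh
      rw [Set.mem_singleton_iff] at hh
      subst hh
      rfl
    let v : centralizer ({r} : Set G) := ⟨r, hrCr⟩
    have hov : orderOf v = 4 := by
      rw [← hr]; exact Subgroup.orderOf_mk r hrCr
    have hpv : IsPGroup 2 (zpowers v) := IsPGroup.of_card (n := 2) (by
      rw [Nat.card_zpowers, hov]; norm_num)
    obtain ⟨Q, hQ⟩ := hpv.exists_le_sylow
    have hfr : (Nat.card (centralizer ({r} : Set G))).factorization 2 = 3 := by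
      have hd1 : 2 ^ 3 ∣ Nat.card (centralizer ({r} : Set G)) := by
        simpa using h8
      have hne : Nat.card (centralizer ({r} : Set G)) ≠ 0 := Nat.card_pos.ne'
      have hle := (hprime2.pow_dvd_iff_le_factorization hne).mp hd1
      have hd2 : Nat.card (centralizer ({r} : Set G)) ∣ 175560 := by
        rw [← hG]; exact Subgroup.card_subgroup_dvd_card _
      have hle2 := (Nat.factorization_le_iff_dvd hne (by norm_num)).mpr hd2 2
      rw [hfac] at hle2
      omega
    have hcQ : Nat.card (Q : Subgroup (centralizer ({r} : Set G))) = 8 := by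
      rw [Q.card_eq_multiplicity, hfr]; norm_num
    have hcP : Nat.card ((Q : Subgroup (centralizer ({r} : Set G))).map
        (centralizer ({r} : Set G)).subtype) = 2 ^ (Nat.card G).factorization 2 := by
      rw [Subgroup.card_map_of_injective (subtype_injective _), hcQ, hG, hfac]; norm_num
    obtain ⟨g, hg, hg'⟩ := sylow_conj' (Sylow.ofCard _ hcP) S
    have hrP : r ∈ (Q : Subgroup (centralizer ({r} : Set G))).map
        (centralizer ({r} : Set G)).subtype :=
      mem_map.mpr ⟨v, hQ (mem_zpowers v), rfl⟩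
    have hr' := hg r hrP
    have hs' := hg' s hsS
    obtain ⟨q, -, hq⟩ := mem_map.mp hs'
    have hs'c : g⁻¹ * s * g ∈ centralizer ({r} : Set G) := by
      rw [← hq]; exact q.2
    have hcomm : r * (g⁻¹ * s * g) = (g⁻¹ * s * g) * r :=
      mem_centralizer_iff.mp hs'c r rfl
    have hcomm2 : (g * r * g⁻¹) * s = s * (g * r * g⁻¹) := by
      have h3 : (g * r * g⁻¹) * s = g * (r * (g⁻¹ * s * g)) * g⁻¹ := by group
      have h4 : s * (g * r * g⁻¹) = g * ((g⁻¹ * s * g) * r) * g⁻¹ := by group
      rw [h3, h4, hcomm]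
    have hrne : r ^ 2 ≠ 1 := by
      rw [← htdef]; exact ht1
    have hsr2 : Commute s r → False := by
      intro hc
      have h5 : s * r * s⁻¹ = r := by rw [hc.eq]; group
      rw [h5] at hsr
      apply hrne
      rw [pow_two]
      nth_rewrite 1 [hsr]
      group
    have hr'2 : (g * r * g⁻¹) ^ 2 ≠ 1 := by
      rw [conj_pow]
      intro h
      apply hrne
      have h3 : r ^ 2 = g⁻¹ * (g * r ^ 2 * g⁻¹) * g := by group
      rw [h3, h]; group
    rcases hH _ hr' with h | h | h
    · exact hr'2 h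
    · rw [h] at hcomm2
      exact hsr2 hcomm2.symm
    · rw [h] at hcomm2
      apply hsr2
      have h6 : Commute r⁻¹ s := hcomm2
      have h7 := h6.inv_left
      rw [inv_inv] at h7
      exact h7.symm
  · rw [← count_eq h1 ht hx4]
    have := Cfsg.Agent.Lib.FG7.FrobeniusCount.gcd_dvd_card_pow_eq (K := G) (c := 1) (one_mem _) 8
    rw [hG] at this
    have h8 : Nat.gcd 8 175560 = 8 := by norm_num
    rwa [h8] at this

theorem d8_count (hG : Nat.card G = 175560) (S : Sylow 2 G)
    (h1 : ∀ x y : G, orderOf x = 2 → orderOf y = 2 → ∃ g : G, g * x * g⁻¹ = y) {r s : G}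
    (hrS : r ∈ S) (hsS : s ∈ S) (hr : orderOf r = 4) (hs : orderOf s = 2)
    (hsr : s * r * s⁻¹ = r⁻¹) :
    ∃ a : ℕ, a * Nat.card (centralizer ({r} : Set G)) = Nat.card (centralizer ({r ^ 2} : Set G)) ∧
      4 ∣ Nat.card (centralizer ({r} : Set G)) ∧ ¬ 8 ∣ Nat.card (centralizer ({r} : Set G)) ∧
      8 ∣ 1 + (centralizer ({r ^ 2} : Set G)).index * (1 + a) :=
  d8_count_aux hG S h1 hrS hsS hr hs hsr

end Cfsg.Agent.Lib.U175
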