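import Mathlib

/-!
# Last step of the dihedral case for simple groups of order 175560.
-/

namespace Cfsg.Agent.Lib.U175.D2Aux

open Subgroup

theorem fact_one {p n m : ℕ} (hp : p.Prime) (h : n = p * m) (hm : ¬ p ∣ m) :
    n.factorization p = 1 := by
  have hm0 : m ≠ 0 := by rintro rfl; exact hm (dvd_zero _)
  subst h
  rw [Nat.factorization_mul hp.ne_zero hm0]
  simp [hp.factorization_self, Nat.factorization_eq_zero_of_not_dvd hm]

section aux

variable {X : Type*} [Group X] [Finite X]

theorem normalizer_index_modEq {p : ℕ} [Fact p.Prime] (H : Subgroup X)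
    (hH : Nat.card H = p ^ (Nat.card X).factorization p) :
    (normalizer (H : Set X)).index ≡ 1 [MOD p] := by
  have h := card_sylow_modEq_one p X
  rw [Sylow.card_eq_index_normalizer (Sylow.ofCard H hH)] at h
  exact h

theorem eq_of_normal_sylow {p : ℕ} [Fact p.Prime] {B D : Subgroup X} (hBn : B.Normal)
    (hB : Nat.card B = p ^ (Nat.card X).factorization p)
    (hD : Nat.card D = p ^ (Nat.card X).factorization p) : D = B := by
  have hs : Unique (Sylow p X) := Sylow.unique_of_normal (Sylow.ofCard B hB) (by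
    simpa using hBn)
  have := Subsingleton.elim (Sylow.ofCard D hD) (Sylow.ofCard B hB)
  have h2 := congrArg (fun P : Sylow p X => (P : Subgroup X)) this
  simpa using h2

end aux

variable {G : Type*} [Group G] [Finite G]

theorem mem_norm_of_zpowers {c a : G} (h : zpowers (c * a * c⁻¹) = zpowers a) :
    c ∈ normalizer ((zpowers a : Subgroup G) : Set G) := by
  refine mem_normalizer_fintype ?_
  intro n hn
  obtain ⟨k, rfl⟩ := mem_zpowers_iff.mp hn
  have : c * a ^ k * c⁻¹ = (c * a * c⁻¹) ^ k := by
    rw [conj_zpow]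
  rw [this, ← h]
  exact zpow_mem (mem_zpowers _) _

/-- Two subgroups of order `p` in a group where `p` divides the order exactly once, one normal. -/
theorem zpowers_eq_of_normal (C : Subgroup G) {p : ℕ} [Fact p.Prime] {a d : G} (haC : a ∈ C)
    (hdC : d ∈ C) (hoa : orderOf a = p) (hod : orderOf d = p)
    (hf : (Nat.card C).factorization p = 1)
    (hn : ∀ c ∈ C, c * a * c⁻¹ ∈ zpowers a) : zpowers d = zpowers a := by
  have hale : zpowers a ≤ C := by
    rw [zpowers_le]; exact haC
  have hdle : zpowers d ≤ C := by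
    rw [zpowers_le]; exact hdC
  have hBn : ((zpowers a).subgroupOf C).Normal := by
    constructor
    intro x hx c
    rw [mem_subgroupOf] at hx ⊢
    obtain ⟨k, hk⟩ := mem_zpowers_iff.mp hx
    have : ((c * x * c⁻¹ : C) : G) = ((c : G) * a * (c : G)⁻¹) ^ k := by
      rw [conj_zpow, hk]; simp
    rw [this]
    exact zpow_mem (hn c c.2) _
  have hcB : Nat.card ((zpowers a).subgroupOf C) = p ^ (Nat.card C).factorization p := by
    rw [hf, pow_one, Nat.card_congr (subgroupOfEquivOfLe hale).toEquiv, Nat.card_zpowers, hoa]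
  have hcD : Nat.card ((zpowers d).subgroupOf C) = p ^ (Nat.card C).factorization p := by
    rw [hf, pow_one, Nat.card_congr (subgroupOfEquivOfLe hdle).toEquiv, Nat.card_zpowers, hod]
  have h3 := eq_of_normal_sylow hBn hcB hcD
  have h4 := congrArg (Subgroup.map C.subtype) h3
  rwa [map_subgroupOf_eq_of_le hdle, map_subgroupOf_eq_of_le hale] at h4

/-- Sign lemma: an element acting as an involution on a cyclic group of prime order acts by `±1`. -/
theorem act_sign {x b : G} {p : ℕ} (hp : p.Prime) (hb : orderOf b = p)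
    (h : x * b * x⁻¹ ∈ zpowers b) (hx : x * (x * b * x⁻¹) * x⁻¹ = b) :
    x * b * x⁻¹ = b ∨ x * b * x⁻¹ = b⁻¹ := by
  obtain ⟨k, hk⟩ := mem_zpowers_iff.mp h
  have h2 : b ^ (k * k - 1) = 1 := by
    have h3 : x * (x * b * x⁻¹) * x⁻¹ = b ^ (k * k) := by
      rw [← hk, zpow_mul, ← conj_zpow, hk]
    rw [hx] at h3
    rw [zpow_sub, zpow_one, ← h3]
    group
  have h4 : (p : ℤ) ∣ (k * k - 1) := by
    have := orderOf_dvd_iff_zpow_eq_one.mpr h2
    rwa [hb] at this
  have h5 : (k * k - 1) = (k - 1) * (k + 1) := by ring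
  rw [h5] at h4
  have hpz : Prime (p : ℤ) := Nat.prime_iff_prime_int.mp hp
  rcases hpz.dvd_or_dvd h4 with h6 | h6
  · left
    obtain ⟨l, hl⟩ := h6
    have : k = 1 + p * l := by linarith
    rw [← hk, this, zpow_add, zpow_one, zpow_mul, ← hb]
    simp
  · right
    obtain ⟨l, hl⟩ := h6
    have : k = -1 + p * l := by linarith
    rw [← hk, this, zpow_add, zpow_neg_one, zpow_mul, ← hb]
    simp

/-- Any two elements of prime order `p` (`p = 3` or `11`) of a group of order `33`
generate the same subgroup. -/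
theorem uniq_O (O : Subgroup G) (hO : Nat.card O = 33) {p : ℕ} [Fact p.Prime] (hp : p = 3 ∨ p = 11)
    {x z : G} (hx : x ∈ O) (hz : z ∈ O) (hox : orderOf x = p) (hoz : orderOf z = p) :
    zpowers x = zpowers z := by
  have hpp : p.Prime := Fact.out
  have hf : (Nat.card O).factorization p = 1 := by
    rcases hp with rfl | rfl
    · exact fact_one (m := 11) (by norm_num) (by rw [hO]) (by norm_num)
    · exact fact_one (m := 3) (by norm_num) (by rw [hO]) (by norm_num)
  have hxle : zpowers x ≤ O := by rw [zpowers_le]; exact hx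
  have hzle : zpowers z ≤ O := by rw [zpowers_le]; exact hz
  have hcx : Nat.card ((zpowers x).subgroupOf O) = p ^ (Nat.card O).factorization p := by
    rw [hf, pow_one, Nat.card_congr (subgroupOfEquivOfLe hxle).toEquiv, Nat.card_zpowers, hox]
  have hcz : Nat.card ((zpowers z).subgroupOf O) = p ^ (Nat.card O).factorization p := by
    rw [hf, pow_one, Nat.card_congr (subgroupOfEquivOfLe hzle).toEquiv, Nat.card_zpowers, hoz]
  have hn := card_sylow_modEq_one p O
  have hd := Sylow.card_dvd_index (Sylow.ofCard _ hcx)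
  have hidx : ((Sylow.ofCard _ hcx : Sylow p O) : Subgroup O).index * p = 33 := by
    have := Subgroup.index_mul_card ((Sylow.ofCard _ hcx : Sylow p O) : Subgroup O)
    rw [hO] at this
    rw [← this]
    congr 1
    have h3 : Nat.card ((Sylow.ofCard _ hcx : Sylow p O) : Subgroup O) = p ^ (Nat.card O).factorization p := by
      simpa using hcx
    rw [h3, hf, pow_one]
  have hone : Nat.card (Sylow p O) = 1 := by
    have hle : Nat.card (Sylow p O) ∣ 33 := hd.trans (Dvd.intro _ hidx)
    rcases hp with rfl | rfl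
    · have h11 : ((Sylow.ofCard _ hcx : Sylow 3 O) : Subgroup O).index = 11 := by omega
      rw [h11] at hd
      have h5 := Nat.le_of_dvd (by norm_num) hd
      have h6 : Nat.card (Sylow 3 O) % 3 = 1 := hn
      have : Nat.card (Sylow 3 O) ∈ Nat.divisors 11 := by
        simp [hd]
      have h7 : Nat.divisors 11 = {1, 11} := by decide
      rw [h7] at this
      simp only [Finset.mem_insert, Finset.mem_singleton] at this
      rcases this with h | h
      · exact h
      · omega
    · have h3 : ((Sylow.ofCard _ hcx : Sylow 11 O) : Subgroup O).index = 3 := by omega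
      rw [h3] at hd
      have h6 : Nat.card (Sylow 11 O) % 11 = 1 := hn
      have : Nat.card (Sylow 11 O) ∈ Nat.divisors 3 := by
        simp [hd]
      have h7 : Nat.divisors 3 = {1, 3} := by decide
      rw [h7] at this
      simp only [Finset.mem_insert, Finset.mem_singleton] at this
      rcases this with h | h
      · exact h
      · omega
  have hs : Subsingleton (Sylow p O) := (Nat.card_eq_one_iff_unique.mp hone).1
  have := hs.elim (Sylow.ofCard _ hcx) (Sylow.ofCard _ hcz)
  have h2 := congrArg (fun P : Sylow p O => (P : Subgroup O)) this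
  have h3 : (zpowers x).subgroupOf O = (zpowers z).subgroupOf O := by simpa using h2
  have h4 := congrArg (Subgroup.map O.subtype) h3
  rw [map_subgroupOf_eq_of_le hxle, map_subgroupOf_eq_of_le hzle] at h4
  exact h4


/-- Conjugates of `t`: six distinct involutions in `C(a)` force `N(⟨a⟩)` to be large. -/
theorem norm_large
    (h1 : ∀ x y : G, orderOf x = 2 → orderOf y = 2 → ∃ g : G, g * x * g⁻¹ = y)
    {t y a b : G} (ht : orderOf t = 2) (hy : orderOf y = 2) (hty : y * t = t * y)
    (hta : a * t = t * a) (htb : b * t = t * b) (hab : a * b = b * a)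
    (hya : y * a * y⁻¹ = a) (hyb : y * b * y⁻¹ = b⁻¹)
    (hbo : 3 ≤ orderOf b) (hbodd : Odd (orderOf b))
    (huniq : ∀ d ∈ centralizer ({t} : Set G), orderOf d = orderOf a → zpowers d = zpowers a) :
    6 * Nat.card (centralizer ({t} : Set G)) ≤
      Nat.card (normalizer ((zpowers a : Subgroup G) : Set G)) := by
  set N := normalizer ((zpowers a : Subgroup G) : Set G) with hN
  set C := centralizer ({t} : Set G) with hC
  have memC : ∀ {d : G}, d * t = t * d → d ∈ C := by
    intro d hd
    rw [hC, mem_centralizer_iff]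
    intro h hh
    rw [Set.mem_singleton_iff] at hh
    subst hh
    exact hd.symm
  have memC' : ∀ {d : G}, d ∈ C → d * t = t * d := by
    intro d hd
    rw [hC, mem_centralizer_iff] at hd
    exact (hd t rfl).symm
  have haC : a ∈ C := memC hta
  have hCN : C ≤ N := by
    intro c hc
    apply mem_norm_of_zpowers
    apply huniq
    · exact C.mul_mem (C.mul_mem hc haC) (C.inv_mem hc)
    · have : c * a * c⁻¹ = (MulAut.conj c) a := by simp [MulAut.conj_apply]
      rw [this, MulEquiv.orderOf_eq]
  -- every involution commuting with `a` is `N`-conjugate to `t`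
  have fact2 : ∀ x : G, orderOf x = 2 → x * a = a * x → ∃ g ∈ N, g * t * g⁻¹ = x := by
    intro x hx hxa
    obtain ⟨g, hg⟩ := h1 t x ht hx
    refine ⟨g, ?_, hg⟩
    have h3 : g⁻¹ ∈ N := by
      apply mem_norm_of_zpowers
      apply huniq
      · apply memC
        have h4 : x = g * t * g⁻¹ := hg.symm
        have h5 : g⁻¹ * a * g * t = g⁻¹ * (a * (g * t * g⁻¹)) * g := by group
        have h6 : t * (g⁻¹ * a * g) = g⁻¹ * ((g * t * g⁻¹) * a) * g := by group
        rw [inv_inv, h5, h6, ← h4, hxa]
      · have : g⁻¹ * a * g⁻¹⁻¹ = (MulAut.conj g⁻¹) a := by simp [MulAut.conj_apply]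
        rw [this, MulEquiv.orderOf_eq]
    simpa using N.inv_mem h3
  -- the six involutions
  obtain ⟨z, hz⟩ : ∃ z, z = b * t := ⟨_, rfl⟩
  have hbt : Commute b t := htb
  have hcop : Nat.Coprime (orderOf b) (orderOf t) := by
    rw [ht]
    exact (Nat.coprime_two_right).mpr hbodd
  have hoz : orderOf z = orderOf b * 2 := by
    rw [hz, hbt.orderOf_mul_eq_mul_orderOf_of_coprime hcop, ht]
  have hoz6 : 6 ≤ orderOf z := by omega
  have htt : t * t = 1 := by
    have := pow_orderOf_eq_one t
    rw [ht, pow_two] at this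
    exact this
  have htinv : t⁻¹ = t := by
    rw [inv_eq_iff_mul_eq_one]; exact htt
  have hyt : y * t * y⁻¹ = t := by
    rw [hty]; group
  have hyz : y * z * y⁻¹ = z⁻¹ := by
    have h3 : y * z * y⁻¹ = (y * b * y⁻¹) * (y * t * y⁻¹) := by rw [hz]; group
    rw [h3, hyb, hyt, hz, mul_inv_rev, htinv]
    exact (hbt.inv_left).eq
  have hyy : y * y = 1 := by
    have := pow_orderOf_eq_one y
    rw [hy, pow_two] at this
    exact this
  have hyinv : y⁻¹ = y := by
    rw [inv_eq_iff_mul_eq_one]; exact hyy
  have hza : Commute z a := by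
    rw [hz]
    exact Commute.mul_left (Commute.symm hab) (Commute.symm hta)
  have hya' : Commute y a := by
    have h3 : y * a = a * y := by
      have := congrArg (· * y) hya
      simpa using this
    exact h3
  have hyzi : ∀ i : ℕ, y * z ^ i * y⁻¹ = (z ^ i)⁻¹ := by
    intro i
    rw [← conj_pow, hyz, inv_pow]
  have hfsq : ∀ i : ℕ, (z ^ i * y) ^ 2 = 1 := by
    intro i
    have h3 : (z ^ i * y) ^ 2 = z ^ i * (y * z ^ i * y⁻¹) * (y * y) := by
      rw [pow_two]
      simp [mul_assoc]
    rw [h3, hyzi, hyy]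
    group
  have hfne : ∀ i : ℕ, z ^ i * y ≠ 1 := by
    intro i hi
    have h3 : y = (z ^ i)⁻¹ := eq_inv_of_mul_eq_one_right hi
    have h4 : y * z * y⁻¹ = z := by
      rw [h3, inv_inv]
      have : Commute (z ^ i) z := (Commute.refl z).pow_left i
      have h5 : (z ^ i)⁻¹ * z * z ^ i = (z ^ i)⁻¹ * (z ^ i * z) := by
        rw [mul_assoc, this.symm.eq]
      rw [h5, inv_mul_cancel_left]
    rw [hyz] at h4
    have h5 : z ^ 2 = 1 := by
      rw [pow_two]
      nth_rewrite 1 [← h4]
      group
    have := orderOf_le_of_pow_eq_one (by norm_num) h5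
    omega
  have hford : ∀ i : ℕ, orderOf (z ^ i * y) = 2 := by
    intro i
    haveI : Fact (Nat.Prime 2) := ⟨Nat.prime_two⟩
    exact orderOf_eq_prime (hfsq i) (hfne i)
  have hfa : ∀ i : ℕ, (z ^ i * y) * a = a * (z ^ i * y) := by
    intro i
    exact Commute.mul_left (hza.pow_left i) hya'
  choose g hgN hg using fun i : ℕ => fact2 (z ^ i * y) (hford i) (hfa i)
  let K : Subgroup N := C.subgroupOf N
  have hcK : Nat.card K = Nat.card C := Nat.card_congr (subgroupOfEquivOfLe hCN).toEquiv
  have hidx := Subgroup.index_mul_card K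
  let φ : Fin 6 → N ⧸ K := fun i => ((⟨g i, hgN i⟩ : N) : N ⧸ K)
  have hφ : Function.Injective φ := by
    intro i j hij
    have h3 : (⟨g i, hgN i⟩ : N)⁻¹ * ⟨g j, hgN j⟩ ∈ K := QuotientGroup.eq.mp hij
    have h4 : (g i)⁻¹ * g j ∈ C := by
      have := mem_subgroupOf.mp h3
      simpa using this
    have h5 := memC' h4
    have h6 : g j * t * (g j)⁻¹ = g i * t * (g i)⁻¹ := by
      have h7 : g j = g i * ((g i)⁻¹ * g j) := by group
      rw [h7]
      have h8 : g i * ((g i)⁻¹ * g j) * t * (g i * ((g i)⁻¹ * g j))⁻¹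
          = g i * (((g i)⁻¹ * g j) * t) * ((g i)⁻¹ * g j)⁻¹ * (g i)⁻¹ := by group
      rw [h8, h5]
      group
    rw [hg, hg] at h6
    have h7 : z ^ (j : ℕ) = z ^ (i : ℕ) := mul_right_cancel h6
    have h8 := pow_injOn_Iio_orderOf (x := z)
      (show (j : ℕ) ∈ Set.Iio (orderOf z) by
        have := j.2
        simp only [Set.mem_Iio]; omega)
      (show (i : ℕ) ∈ Set.Iio (orderOf z) by
        have := i.2
        simp only [Set.mem_Iio]; omega) h7
    exact (Fin.ext h8).symm
  have h6le : 6 ≤ K.index := by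
    have := Nat.card_le_card_of_injective φ hφ
    simpa [Subgroup.index] using this
  rw [hcK] at hidx
  calc 6 * Nat.card C ≤ K.index * Nat.card C := Nat.mul_le_mul_right _ h6le
    _ = Nat.card N := hidx


section final

variable [IsSimpleGroup G]

theorem index_ne_one_of_card {H : Subgroup G} (hG : 1 < Nat.card G) (h1 : Nat.card H ≠ 1)
    (h2 : Nat.card H ≠ Nat.card G) : (normalizer (H : Set G)).index ≠ 1 := by
  intro hi
  have hn : normalizer (H : Set G) = ⊤ := Subgroup.index_eq_one.mp hi
  have hnorm : H.Normal := by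
    rw [← Subgroup.normalizer_eq_top_iff]
    exact hn
  rcases hnorm.eq_bot_or_eq_top with h | h
  · apply h1; rw [h]; simp
  · apply h2; rw [h]; simp

theorem centr_le_norm {t a : G}
    (huniq : ∀ d ∈ centralizer ({t} : Set G), orderOf d = orderOf a → zpowers d = zpowers a)
    (hta : a * t = t * a) :
    centralizer ({t} : Set G) ≤ normalizer ((zpowers a : Subgroup G) : Set G) := by
  have haC : a ∈ centralizer ({t} : Set G) := by
    rw [mem_centralizer_iff]
    intro h hh
    rw [Set.mem_singleton_iff] at hh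
    subst hh
    exact hta.symm
  intro c hc
  apply mem_norm_of_zpowers
  apply huniq
  · exact mul_mem (mul_mem hc haC) (inv_mem hc)
  · have : c * a * c⁻¹ = (MulAut.conj c) a := by simp
    rw [this, MulEquiv.orderOf_eq]

theorem idx_facts (hG : Nat.card G = 175560) {t a : G} {p : ℕ} [Fact p.Prime]
    (hp : p = 3 ∨ p = 11) (hC : Nat.card (centralizer ({t} : Set G)) = 264)
    (hoa : orderOf a = p)
    (hCN : centralizer ({t} : Set G) ≤ normalizer ((zpowers a : Subgroup G) : Set G)) :
    (normalizer ((zpowers a : Subgroup G) : Set G)).index % p = 1 ∧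
    (normalizer ((zpowers a : Subgroup G) : Set G)).index ∣ 665 ∧
    (normalizer ((zpowers a : Subgroup G) : Set G)).index ≠ 1 ∧
    (normalizer ((zpowers a : Subgroup G) : Set G)).index *
      Nat.card (normalizer ((zpowers a : Subgroup G) : Set G)) = 175560 := by
  have hpp : p.Prime := Fact.out
  have hf : (Nat.card G).factorization p = 1 := by
    rcases hp with rfl | rfl
    · exact fact_one (m := 58520) (by norm_num) (by rw [hG]) (by norm_num)
    · exact fact_one (m := 15960) (by norm_num) (by rw [hG]) (by norm_num)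
  have hcard : Nat.card (zpowers a) = p ^ (Nat.card G).factorization p := by
    rw [hf, pow_one, Nat.card_zpowers, hoa]
  have h1 := normalizer_index_modEq (zpowers a) hcard
  refine ⟨?_, ?_, ?_, ?_⟩
  · have h2 : (normalizer ((zpowers a : Subgroup G) : Set G)).index % p = 1 % p := h1
    rw [h2]
    exact Nat.mod_eq_of_lt hpp.one_lt
  · have h2 := Subgroup.index_dvd_of_le hCN
    have h3 := Subgroup.index_mul_card (centralizer ({t} : Set G))
    rw [hC, hG] at h3
    have h4 : (centralizer ({t} : Set G)).index = 665 := by omega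
    rwa [h4] at h2
  · apply index_ne_one_of_card
    · rw [hG]; norm_num
    · rw [Nat.card_zpowers, hoa]; rcases hp with rfl | rfl <;> norm_num
    · rw [Nat.card_zpowers, hoa, hG]; rcases hp with rfl | rfl <;> norm_num
  · have h3 := Subgroup.index_mul_card (normalizer ((zpowers a : Subgroup G) : Set G))
    rw [hG] at h3
    exact h3

theorem final_contra (hG : Nat.card G = 175560)
    (h1 : ∀ x y : G, orderOf x = 2 → orderOf y = 2 → ∃ g : G, g * x * g⁻¹ = y)
    {t y a b : G} (ht : orderOf t = 2) (hy : orderOf y = 2) (hty : y * t = t * y)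
    (hta : a * t = t * a) (htb : b * t = t * b) (hab : a * b = b * a)
    (hya : y * a * y⁻¹ = a) (hyb : y * b * y⁻¹ = b⁻¹)
    (hC : Nat.card (centralizer ({t} : Set G)) = 264)
    (hoab : (orderOf a = 3 ∧ orderOf b = 11) ∨ (orderOf a = 11 ∧ orderOf b = 3))
    (huniqA : ∀ d ∈ centralizer ({t} : Set G), orderOf d = orderOf a → zpowers d = zpowers a)
    (huniqB : ∀ d ∈ centralizer ({t} : Set G), orderOf d = orderOf b → zpowers d = zpowers b) :
    False := by
  have hCNa := centr_le_norm huniqA hta
  have hCNb := centr_le_norm huniqB htb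
  have hbo : 3 ≤ orderOf b := by omega
  have hbodd : Odd (orderOf b) := by
    rcases hoab with ⟨-, h⟩ | ⟨-, h⟩ <;> rw [h] <;> decide
  have hlarge := norm_large h1 ht hy hty hta htb hab hya hyb hbo hbodd huniqA
  rw [hC] at hlarge
  haveI : Fact (Nat.Prime 3) := ⟨by norm_num⟩
  haveI : Fact (Nat.Prime 11) := ⟨by norm_num⟩
  have h665 : Nat.divisors 665 = {1, 5, 7, 19, 35, 95, 133, 665} := by decide +kernel
  rcases hoab with ⟨hoa, hob⟩ | ⟨hoa, hob⟩
  · -- `a` of order 3, `b` of order 11
    obtain ⟨h3, h4, h5, h6⟩ := idx_facts hG (p := 3) (Or.inl rfl) hC hoa hCNa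
    obtain ⟨h3', h4', h5', h6'⟩ := idx_facts hG (p := 11) (Or.inr rfl) hC hob hCNb
    set N := normalizer ((zpowers a : Subgroup G) : Set G) with hN
    set N' := normalizer ((zpowers b : Subgroup G) : Set G) with hN'
    have hmemN : N.index ∈ Nat.divisors 665 := by simp [h4]
    have hmemN' : N'.index ∈ Nat.divisors 665 := by simp [h4']
    rw [h665] at hmemN hmemN'
    simp only [Finset.mem_insert, Finset.mem_singleton] at hmemN hmemN'
    have hN'eq : N'.index = 133 := by omega
    have hcN' : Nat.card N' = 1320 := by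
      rw [hN'eq] at h6'; omega
    have hNidx : N.index = 7 ∨ N.index = 19 := by
      rcases hmemN with h | h | h | h | h | h | h | h
      · omega
      · rw [h] at h3; omega
      · exact Or.inl h
      · exact Or.inr h
      · rw [h] at h3; omega
      · rw [h] at h3; omega
      · rw [h] at h6; omega
      · rw [h] at h6; omega
    -- the Sylow 11 of `N`
    have hble : zpowers b ≤ N := by
      rw [zpowers_le]
      apply hCNa
      rw [mem_centralizer_iff]
      intro h hh
      rw [Set.mem_singleton_iff] at hh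
      subst hh
      exact htb.symm
    let Q : Subgroup N := (zpowers b).subgroupOf N
    have hcQ : Nat.card Q = 11 := by
      rw [Nat.card_congr (subgroupOfEquivOfLe hble).toEquiv, Nat.card_zpowers, hob]
    have hfN : (Nat.card N).factorization 11 = 1 := by
      rcases hNidx with h | h
      · rw [h] at h6
        exact fact_one (m := 2280) (by norm_num) (by omega) (by norm_num)
      · rw [h] at h6
        exact fact_one (m := 840) (by norm_num) (by omega) (by norm_num)
    have hm := normalizer_index_modEq (p := 11) Q (by rw [hcQ, hfN, pow_one])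
    have hKle : (centralizer ({t} : Set G)).subgroupOf N ≤ normalizer (Q : Set N) := by
      intro c hc
      refine mem_normalizer_fintype ?_
      intro n hn
      have hc' : (c : G) ∈ N' := hCNb (mem_subgroupOf.mp hc)
      have hn' : (n : G) ∈ zpowers b := mem_subgroupOf.mp hn
      have := (mem_normalizer_iff.mp hc' (n : G)).mp hn'
      exact mem_subgroupOf.mpr (by simpa using this)
    have hcK : Nat.card ((centralizer ({t} : Set G)).subgroupOf N) = 264 := by
      rw [Nat.card_congr (subgroupOfEquivOfLe hCNa).toEquiv, hC]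
    have hdvd := Subgroup.card_dvd_of_le hKle
    rw [hcK] at hdvd
    obtain ⟨l, hl⟩ := hdvd
    have hidxQ := Subgroup.index_mul_card (normalizer (Q : Set N))
    rw [hl] at hidxQ
    have hm2 : (normalizer (Q : Set N)).index % 11 = 1 := hm
    have hmone : (normalizer (Q : Set N)).index = 1 := by
      rcases hNidx with h | h
      · rw [h] at h6
        have hcN : Nat.card N = 25080 := by omega
        rw [hcN] at hidxQ
        have h95 : (normalizer (Q : Set N)).index * l = 95 := by nlinarith
        have hmem : (normalizer (Q : Set N)).index ∈ Nat.divisors 95 := by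
          simp only [Nat.mem_divisors]; exact ⟨Dvd.intro _ h95, by norm_num⟩
        have : Nat.divisors 95 = {1, 5, 19, 95} := by decide +kernel
        rw [this] at hmem
        simp only [Finset.mem_insert, Finset.mem_singleton] at hmem
        omega
      · rw [h] at h6
        have hcN : Nat.card N = 9240 := by omega
        rw [hcN] at hidxQ
        have h35 : (normalizer (Q : Set N)).index * l = 35 := by nlinarith
        have hmem : (normalizer (Q : Set N)).index ∈ Nat.divisors 35 := by
          simp only [Nat.mem_divisors]; exact ⟨Dvd.intro _ h35, by norm_num⟩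
        have : Nat.divisors 35 = {1, 5, 7, 35} := by decide +kernel
        rw [this] at hmem
        simp only [Finset.mem_insert, Finset.mem_singleton] at hmem
        omega
    have htop : normalizer (Q : Set N) = ⊤ := Subgroup.index_eq_one.mp hmone
    have hNN' : N ≤ N' := by
      intro g hg
      refine mem_normalizer_fintype ?_
      intro n hn
      have hnN : n ∈ N := hble hn
      have hgg : (⟨g, hg⟩ : N) ∈ normalizer (Q : Set N) := by rw [htop]; trivial
      have hnQ : (⟨n, hnN⟩ : N) ∈ Q := mem_subgroupOf.mpr hn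
      have := (mem_normalizer_iff.mp hgg _).mp hnQ
      have h9 := mem_subgroupOf.mp this
      simpa using h9
    have h10 := Subgroup.card_dvd_of_le hNN'
    rw [hcN'] at h10
    have h11 := Nat.le_of_dvd (by norm_num) h10
    omega
  · -- `a` of order 11
    obtain ⟨h3, h4, h5, h6⟩ := idx_facts hG (p := 11) (Or.inr rfl) hC hoa hCNa
    set N := normalizer ((zpowers a : Subgroup G) : Set G) with hN
    have hmemN : N.index ∈ Nat.divisors 665 := by simp [h4]
    rw [h665] at hmemN
    simp only [Finset.mem_insert, Finset.mem_singleton] at hmemN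
    have h133 : N.index = 133 := by omega
    rw [h133] at h6
    omega

end final

end Cfsg.Agent.Lib.U175.D2Aux

namespace Cfsg.Agent.Lib.U175

open Subgroup D2Aux

variable {G : Type*} [Group G] [Finite G] [IsSimpleGroup G]

theorem with_uv (hG : Nat.card G = 175560)
    (h1 : ∀ x y : G, orderOf x = 2 → orderOf y = 2 → ∃ g : G, g * x * g⁻¹ = y)
    {t r s u v : G} (ht : orderOf t = 2) (hs : orderOf s = 2) (hr : orderOf r = 4)
    (hsr : s * r * s⁻¹ = r⁻¹) (hst : s * t = t * s) (hrt : r * t = t * r)
    (htu : u * t = t * u) (htv : v * t = t * v) (huv : u * v = v * u)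
    (hru : r * u * r⁻¹ = u) (hrv : r * v * r⁻¹ = v⁻¹)
    (hsu : s * u * s⁻¹ = u ∨ s * u * s⁻¹ = u⁻¹) (hsv : s * v * s⁻¹ = v ∨ s * v * s⁻¹ = v⁻¹)
    (hC : Nat.card (centralizer ({t} : Set G)) = 264)
    (hoab : (orderOf u = 3 ∧ orderOf v = 11) ∨ (orderOf u = 11 ∧ orderOf v = 3))
    (huniqU : ∀ d ∈ centralizer ({t} : Set G), orderOf d = orderOf u → zpowers d = zpowers u)
    (huniqV : ∀ d ∈ centralizer ({t} : Set G), orderOf d = orderOf v → zpowers d = zpowers v) :
    False := by
  have hss : s * s = 1 := by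
    have := pow_orderOf_eq_one s
    rwa [hs, pow_two] at this
  have hsinv : s⁻¹ = s := by rw [inv_eq_iff_mul_eq_one]; exact hss
  have hsrt : (s * r) * t = t * (s * r) := by
    rw [mul_assoc, hrt, ← mul_assoc, hst, mul_assoc]
  have hsro : orderOf (s * r) = 2 := by
    haveI : Fact (Nat.Prime 2) := ⟨Nat.prime_two⟩
    refine orderOf_eq_prime ?_ ?_
    · have h2 : s * r * s = r⁻¹ := by rw [← hsr, hsinv]
      rw [pow_two]
      calc s * r * (s * r) = (s * r * s) * r := by group
        _ = 1 := by rw [h2]; group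
    · intro h
      have h2 : s = r⁻¹ := eq_inv_of_mul_eq_one_left h
      rw [h2, orderOf_inv, hr] at hs
      omega
  have hconj : ∀ x : G, (s * r) * x * (s * r)⁻¹ = s * (r * x * r⁻¹) * s⁻¹ := by
    intro x; group
  have hoab' : (orderOf v = 3 ∧ orderOf u = 11) ∨ (orderOf v = 11 ∧ orderOf u = 3) := by
    rcases hoab with h | h
    · exact Or.inr ⟨h.2, h.1⟩
    · exact Or.inl ⟨h.2, h.1⟩
  rcases hsu with hsu | hsu <;> rcases hsv with hsv | hsv
  · -- `s r` centralizes `u`, inverts `v`
    refine final_contra hG h1 (y := s * r) (a := u) (b := v) ht hsro hsrt htu htv huv ?_ ?_ hC hoab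
      huniqU huniqV
    · rw [hconj, hru, hsu]
    · rw [hconj, hrv]
      have : s * v⁻¹ * s⁻¹ = (s * v * s⁻¹)⁻¹ := by group
      rw [this, hsv]
  · refine final_contra hG h1 (y := s) (a := u) (b := v) ht hs hst htu htv huv hsu hsv hC hoab
      huniqU huniqV
  · refine final_contra hG h1 (y := s) (a := v) (b := u) ht hs hst htv htu huv.symm hsv hsu hC hoab'
      huniqV huniqU
  · refine final_contra hG h1 (y := s * r) (a := v) (b := u) ht hsro hsrt htv htu huv.symm ?_ ?_ hC hoab'
      huniqV huniqU
    · rw [hconj, hrv]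
      have : s * v⁻¹ * s⁻¹ = (s * v * s⁻¹)⁻¹ := by group
      rw [this, hsv, inv_inv]
    · rw [hconj, hru, hsu]

theorem d8_last (hG : Nat.card G = 175560)
    (h1 : ∀ x y : G, orderOf x = 2 → orderOf y = 2 → ∃ g : G, g * x * g⁻¹ = y) {r s : G}
    (hr : orderOf r = 4) (hs : orderOf s = 2) (hsr : s * r * s⁻¹ = r⁻¹)
    (hC : Nat.card (centralizer ({r ^ 2} : Set G)) = 264) (O : Subgroup G)
    (hOc : Nat.card O = 33) (hOC : O ≤ centralizer ({r ^ 2} : Set G))
    (hOn : ∀ c ∈ centralizer ({r ^ 2} : Set G), ∀ x ∈ O, c * x * c⁻¹ ∈ O)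
    (hd : Nat.card (centralizer ({r} : Set G)) = 12 ∨ Nat.card (centralizer ({r} : Set G)) = 44) :
    False := by
  obtain ⟨t, htdef⟩ : ∃ t, t = r ^ 2 := ⟨_, rfl⟩
  rw [← htdef] at hC hOC hOn
  have ht : orderOf t = 2 := by
    rw [htdef, orderOf_pow_of_dvd (by norm_num) (by rw [hr]; norm_num), hr]
  have hr4 : r ^ 4 = 1 := by rw [← hr]; exact pow_orderOf_eq_one r
  have hrt : r * t = t * r := by
    rw [htdef]; exact (Commute.refl r).pow_right 2
  have hss : s * s = 1 := by
    have := pow_orderOf_eq_one s
    rwa [hs, pow_two] at this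
  have hsinv : s⁻¹ = s := by rw [inv_eq_iff_mul_eq_one]; exact hss
  have hst : s * t = t * s := by
    have h2 : s * t * s⁻¹ = t := by
      rw [htdef, ← conj_pow, hsr, inv_pow]
      rw [inv_eq_iff_mul_eq_one, ← pow_add]
      exact hr4
    calc s * t = s * t * s⁻¹ * s := by group
      _ = t * s := by rw [h2]
  have memC : ∀ {d : G}, d * t = t * d → d ∈ centralizer ({t} : Set G) := by
    intro d hd
    rw [mem_centralizer_iff]
    intro h hh
    rw [Set.mem_singleton_iff] at hh
    subst hh
    exact hd.symm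
  have memC' : ∀ {d : G}, d ∈ centralizer ({t} : Set G) → d * t = t * d := by
    intro d hd
    rw [mem_centralizer_iff] at hd
    exact (hd t rfl).symm
  haveI : Fact (Nat.Prime 3) := ⟨by norm_num⟩
  haveI : Fact (Nat.Prime 11) := ⟨by norm_num⟩
  obtain ⟨q0, hq0⟩ := exists_prime_orderOf_dvd_card' (G := O) 11 (by rw [hOc]; norm_num)
  obtain ⟨w0, hw0⟩ := exists_prime_orderOf_dvd_card' (G := O) 3 (by rw [hOc]; norm_num)
  obtain ⟨q, hqO⟩ := q0
  obtain ⟨w, hwO⟩ := w0
  have hq : orderOf q = 11 := by rw [← hq0]; exact (Subgroup.orderOf_mk q hqO).symm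
  have hw : orderOf w = 3 := by rw [← hw0]; exact (Subgroup.orderOf_mk w hwO).symm
  have hconjO : ∀ {c x : G}, orderOf (c * x * c⁻¹) = orderOf x := by
    intro c x
    have : c * x * c⁻¹ = (MulAut.conj c) x := by simp
    rw [this, MulEquiv.orderOf_eq]
  have hnq : ∀ c ∈ centralizer ({t} : Set G), c * q * c⁻¹ ∈ zpowers q := by
    intro c hc
    have := uniq_O O hOc (p := 11) (Or.inr rfl) (hOn c hc q hqO) hqO (by rw [hconjO, hq]) hq
    rw [← this]
    exact mem_zpowers _
  have hnw : ∀ c ∈ centralizer ({t} : Set G), c * w * c⁻¹ ∈ zpowers w := by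
    intro c hc
    have := uniq_O O hOc (p := 3) (Or.inl rfl) (hOn c hc w hwO) hwO (by rw [hconjO, hw]) hw
    rw [← this]
    exact mem_zpowers _
  have hf11 : (Nat.card (centralizer ({t} : Set G))).factorization 11 = 1 :=
    fact_one (m := 24) (by norm_num) (by rw [hC]) (by norm_num)
  have hf3 : (Nat.card (centralizer ({t} : Set G))).factorization 3 = 1 :=
    fact_one (m := 88) (by norm_num) (by rw [hC]) (by norm_num)
  have huq : ∀ d ∈ centralizer ({t} : Set G), orderOf d = orderOf q → zpowers d = zpowers q := by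
    intro d hd hod
    exact zpowers_eq_of_normal _ (p := 11) (hOC hqO) hd hq (by rw [hod, hq]) hf11 hnq
  have huw : ∀ d ∈ centralizer ({t} : Set G), orderOf d = orderOf w → zpowers d = zpowers w := by
    intro d hd hod
    exact zpowers_eq_of_normal _ (p := 3) (hOC hwO) hd hw (by rw [hod, hw]) hf3 hnw
  have hqC := hOC hqO
  have hwC := hOC hwO
  have htq := memC' hqC
  have htw := memC' hwC
  have hrC : r ∈ centralizer ({t} : Set G) := memC hrt
  have hsC : s ∈ centralizer ({t} : Set G) := memC hst
  -- `q` and `w` commute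
  have hqw : q * w = w * q := by
    have hx1 : q * w * q⁻¹ * w⁻¹ ∈ zpowers w :=
      mul_mem (hnw q hqC) (inv_mem (mem_zpowers _))
    have hx2 : q * w * q⁻¹ * w⁻¹ ∈ zpowers q := by
      have : q * w * q⁻¹ * w⁻¹ = q * (w * q * w⁻¹)⁻¹ := by group
      rw [this]
      exact mul_mem (mem_zpowers _) (inv_mem (hnq w hwC))
    have hd1 := orderOf_dvd_of_mem_zpowers hx1
    have hd2 := orderOf_dvd_of_mem_zpowers hx2
    rw [hw] at hd1
    rw [hq] at hd2
    have : orderOf (q * w * q⁻¹ * w⁻¹) = 1 := by
      have := Nat.dvd_gcd hd1 hd2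
      simpa using this
    rw [orderOf_eq_one_iff] at this
    have h3 : q * w * q⁻¹ * w⁻¹ * (w * q) = q * w := by group
    rw [this, one_mul] at h3
    exact h3.symm
  -- squares of `r`, `s` act trivially
  have hsq_r : ∀ x : G, x * t = t * x → r * (r * x * r⁻¹) * r⁻¹ = x := by
    intro x hx
    have h2 : r * (r * x * r⁻¹) * r⁻¹ = t * x * t⁻¹ := by
      rw [htdef, pow_two]; group
    rw [h2, ← hx]; group
  have hsq_s : ∀ x : G, s * (s * x * s⁻¹) * s⁻¹ = x := by
    intro x
    rw [hsinv]
    calc s * (s * x * s) * s = (s * s) * x * (s * s) := by group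
      _ = x := by rw [hss]; group
  have hrq := act_sign (by norm_num) hq (hnq r hrC) (hsq_r q htq)
  have hrw := act_sign (by norm_num) hw (hnw r hrC) (hsq_r w htw)
  have hsq := act_sign (by norm_num) hq (hnq s hsC) (hsq_s q)
  have hsw := act_sign (by norm_num) hw (hnw s hsC) (hsq_s w)
  -- an element of `C(r)` of prime order gives the subgroup centralized by `r`
  have hcomm_of_mem : ∀ {x u : G}, u ∈ centralizer ({r} : Set G) → x ∈ zpowers u → r * x * r⁻¹ = x := by
    intro x u hu hx
    rw [mem_centralizer_iff] at hu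
    have hu' : r * u = u * r := hu r rfl
    obtain ⟨k, rfl⟩ := mem_zpowers_iff.mp hx
    have : Commute r (u ^ k) := (Commute.zpow_right hu' k)
    rw [this.eq]; group
  have hnot_of_not : ∀ {x : G}, ¬ orderOf x ∣ Nat.card (centralizer ({r} : Set G)) →
      r * x * r⁻¹ ≠ x := by
    intro x hx h
    apply hx
    apply Subgroup.orderOf_dvd_natCard
    rw [mem_centralizer_iff]
    intro y hy
    rw [Set.mem_singleton_iff] at hy
    subst hy
    calc y * x = y * x * y⁻¹ * y := by group
      _ = x * y := by rw [h]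
  have hex : ∀ {p : ℕ} [Fact p.Prime], p ∣ Nat.card (centralizer ({r} : Set G)) →
      ∃ u ∈ centralizer ({r} : Set G), orderOf u = p ∧ u ∈ centralizer ({t} : Set G) := by
    intro p _ hp
    obtain ⟨u0, hu0⟩ := exists_prime_orderOf_dvd_card' (G := centralizer ({r} : Set G)) p hp
    refine ⟨u0, u0.2, ?_, ?_⟩
    · rw [← hu0]; simp
    · apply memC
      have h2 := mem_centralizer_iff.mp u0.2 r rfl
      rw [htdef]
      exact ((show Commute r (u0 : G) from h2).pow_left 2).symm.eq
  rcases hd with hd | hd
  · -- `|C(r)| = 12`: `r` centralizes `w`, inverts `q`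
    have hrq' : r * q * r⁻¹ = q⁻¹ := by
      rcases hrq with h | h
      · exact absurd h (hnot_of_not (by rw [hd, hq]; norm_num))
      · exact h
    obtain ⟨u, hu, huo, huC⟩ := hex (p := 3) (by rw [hd]; norm_num)
    have hwu : w ∈ zpowers u := by
      rw [huw u huC (by rw [huo, hw])]
      exact mem_zpowers _
    have hrw' : r * w * r⁻¹ = w := hcomm_of_mem hu hwu
    exact with_uv hG h1 ht hs hr hsr hst hrt htw htq hqw.symm hrw' hrq' hsw hsq hC
      (Or.inl ⟨hw, hq⟩) huw huq
  · -- `|C(r)| = 44`: `r` centralizes `q`, inverts `w`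
    have hrw' : r * w * r⁻¹ = w⁻¹ := by
      rcases hrw with h | h
      · exact absurd h (hnot_of_not (by rw [hd, hw]; norm_num))
      · exact h
    obtain ⟨u, hu, huo, huC⟩ := hex (p := 11) (by rw [hd]; norm_num)
    have hqu : q ∈ zpowers u := by
      rw [huq u huC (by rw [huo, hq])]
      exact mem_zpowers _
    have hrq' : r * q * r⁻¹ = q := hcomm_of_mem hu hqu
    exact with_uv hG h1 ht hs hr hsr hst hrt htq htw hqw hrq' hrw' hsq hsw hC
      (Or.inr ⟨hq, hw⟩) huq huw

end Cfsg.Agent.Lib.U175
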