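import Cfsg.Agent.Lib.U175.E8
import Cfsg.Agent.Lib.U175.D1
import Cfsg.Agent.Lib.U175.D2
import Cfsg.Agent.S0514

/-!
# The dihedral case does not occur
-/

set_option autoImplicit false

namespace Cfsg.Agent.Lib.U175

open Subgroup

section Dih

/-- With a normal subgroup of odd order and `2`-power index, the number of Sylow `p`-subgroups
is odd. -/
theorem odd_sylow_count {X : Type*} [Group X] [Finite X] {p : ℕ} [hp : Fact p.Prime] (hp2 : p ≠ 2)
    (N : Subgroup X) [hNn : N.Normal] (hodd : Odd (Nat.card N)) (k : ℕ) (hk : N.index = 2 ^ k) :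
    ¬ 2 ∣ Nat.card (Sylow p X) := by
  obtain ⟨P⟩ : Nonempty (Sylow p X) := inferInstance
  have hPN : (P : Subgroup X) ≤ N := by
    intro x hx
    obtain ⟨j, hj⟩ := (IsPGroup.iff_orderOf.1 P.isPGroup') ⟨x, hx⟩
    rw [Subgroup.orderOf_mk] at hj
    have h1 : orderOf (x : X ⧸ N) ∣ orderOf x := orderOf_map_dvd (QuotientGroup.mk' N) x
    have h2 : orderOf (x : X ⧸ N) ∣ 2 ^ k := by
      rw [← hk]
      exact orderOf_dvd_natCard _
    have h3 : Nat.Coprime (orderOf x) (2 ^ k) := by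
      rw [hj]
      exact Nat.Coprime.pow _ _ ((Nat.coprime_primes hp.out Nat.prime_two).2 hp2)
    have h4 : orderOf (x : X ⧸ N) = 1 := Nat.eq_one_of_dvd_coprimes h3 h1 h2
    have h5 : (x : X ⧸ N) = 1 := orderOf_eq_one_iff.1 h4
    exact (QuotientGroup.eq_one_iff x).1 h5
  have hf := Sylow.normalizer_sup_eq_top' P hPN
  let f : normalizer ((P : Subgroup X) : Set X) →* X ⧸ N :=
    (QuotientGroup.mk' N).comp (normalizer ((P : Subgroup X) : Set X)).subtype
  have hsurj : Function.Surjective f := by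
    intro q
    obtain ⟨x, rfl⟩ := QuotientGroup.mk_surjective q
    have hx : x ∈ normalizer ((P : Subgroup X) : Set X) ⊔ N := by
      have h6 : normalizer ((P : Subgroup X) : Set X) ⊔ N = ⊤ := hf
      rw [h6]; exact mem_top x
    have hx' : x ∈ ((normalizer ((P : Subgroup X) : Set X) ⊔ N : Subgroup X) : Set X) := hx
    rw [Subgroup.mul_normal] at hx'
    obtain ⟨a, ha, b, hb, rfl⟩ := Set.mem_mul.1 hx'
    refine ⟨⟨a, ha⟩, ?_⟩
    show (a : X ⧸ N) = ((a * b : X) : X ⧸ N)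
    rw [QuotientGroup.mk_mul, (QuotientGroup.eq_one_iff b).2 hb, mul_one]
  have h1 := Subgroup.card_dvd_of_surjective f hsurj
  have h2 : Nat.card (X ⧸ N) = 2 ^ k := hk
  rw [h2] at h1
  obtain ⟨c, hc⟩ := h1
  have h3 := Subgroup.card_mul_index N
  have h4 := Subgroup.card_mul_index (normalizer ((P : Subgroup X) : Set X))
  have h5 : Nat.card (Sylow p X) = (normalizer ((P : Subgroup X) : Set X)).index :=
    Sylow.card_eq_index_normalizer P
  rw [hc, ← h5, ← h3, hk] at h4
  have h6 : 2 ^ k * (c * Nat.card (Sylow p X)) = 2 ^ k * Nat.card N := by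
    rw [← mul_assoc, h4, mul_comm]
  have h7 := Nat.eq_of_mul_eq_mul_left (by positivity) h6
  intro h8
  rw [← h7] at hodd
  have h9 : 2 ∣ c * Nat.card (Sylow p X) := Dvd.dvd.mul_left h8 c
  exact (Nat.not_even_iff_odd.2 hodd) (even_iff_two_dvd.2 h9)

theorem arithL : ∀ l ∈ Nat.divisors 21945, ¬ 5 ∣ l → ¬ 7 ∣ l → ¬ 19 ∣ l →
    l = 1 ∨ l = 3 ∨ l = 11 ∨ l = 33 := by decide +kernel

theorem arith1 : ∀ d ∈ Nat.divisors 8, 4 ∣ d → ¬ 8 ∣ d → ¬ 8 ∣ 1 + 21945 * (1 + 8 / d) := by decide +kernel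
theorem arith3 : ∀ d ∈ Nat.divisors 24, 4 ∣ d → ¬ 8 ∣ d → ¬ 8 ∣ 1 + 7315 * (1 + 24 / d) := by decide +kernel
theorem arith11 : ∀ d ∈ Nat.divisors 88, 4 ∣ d → ¬ 8 ∣ d → ¬ 8 ∣ 1 + 1995 * (1 + 88 / d) := by decide +kernel
theorem arith33 : ∀ d ∈ Nat.divisors 264, 4 ∣ d → ¬ 8 ∣ d → 8 ∣ 1 + 665 * (1 + 264 / d) →
    d = 12 ∨ d = 44 := by decide +kernel

variable {G : Type*} [Group G] [Finite G] [IsSimpleGroup G]

theorem not_dihedral (hG : Nat.card G = 175560)
    (h1 : ∀ x y : G, orderOf x = 2 → orderOf y = 2 → ∃ g : G, g * x * g⁻¹ = y)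
    (S : Sylow 2 G) (hS : Nonempty ((S : Subgroup G) ≃* DihedralGroup 4)) : False := by
  obtain ⟨e⟩ := hS
  have h8S := card_sylow2 hG S
  let r' : (S : Subgroup G) := e.symm (DihedralGroup.r 1)
  let s' : (S : Subgroup G) := e.symm (DihedralGroup.sr 0)
  set r : G := (r' : G) with hrdef
  set s : G := (s' : G) with hsdef
  have hrS : r ∈ (S : Subgroup G) := r'.2
  have hsS : s ∈ (S : Subgroup G) := s'.2
  have hr : orderOf r = 4 := by
    rw [hrdef, Subgroup.orderOf_coe, MulEquiv.orderOf_eq]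
    exact DihedralGroup.orderOf_r_one
  have hs : orderOf s = 2 := by
    rw [hsdef, Subgroup.orderOf_coe, MulEquiv.orderOf_eq]
    exact DihedralGroup.orderOf_sr 0
  have hsr : s * r * s⁻¹ = r⁻¹ := by
    have h2 : (DihedralGroup.sr 0 * DihedralGroup.r 1 * (DihedralGroup.sr 0)⁻¹ : DihedralGroup 4) =
        (DihedralGroup.r 1)⁻¹ := by decide
    have h3 : s' * r' * s'⁻¹ = r'⁻¹ := by
      have := congrArg e.symm h2
      rw [map_mul, map_mul, map_inv, map_inv] at this
      exact this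
    exact congrArg Subtype.val h3
  have hr2eq : (r ^ 2 : G) = ((e.symm ((DihedralGroup.r 1) ^ 2) : (S : Subgroup G)) : G) := by
    rw [map_pow, Subgroup.coe_pow]
  have hcen : ∀ x ∈ (S : Subgroup G), x * r ^ 2 = r ^ 2 * x := by
    intro x hx
    have h2 : ∀ y : DihedralGroup 4, y * (DihedralGroup.r 1) ^ 2 = (DihedralGroup.r 1) ^ 2 * y := by decide
    have h3 := congrArg e.symm (h2 (e ⟨x, hx⟩))
    rw [map_mul, map_mul, MulEquiv.symm_apply_apply] at h3
    have h4 := congrArg Subtype.val h3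
    rw [hr2eq]
    simpa using h4
  have hsq : ∀ x ∈ (S : Subgroup G), x ^ 2 = 1 ∨ x ^ 2 = r ^ 2 := by
    intro x hx
    have h2 : ∀ y : DihedralGroup 4, y ^ 2 = 1 ∨ y ^ 2 = (DihedralGroup.r 1) ^ 2 := by decide
    rcases h2 (e ⟨x, hx⟩) with h3 | h3
    · left
      have h4 := congrArg e.symm h3
      rw [map_pow, MulEquiv.symm_apply_apply, map_one] at h4
      simpa using congrArg Subtype.val h4
    · right
      have h4 := congrArg e.symm h3
      rw [map_pow, MulEquiv.symm_apply_apply] at h4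
      rw [hr2eq]
      have h5 := congrArg Subtype.val h4
      simpa using h5
  have ht : orderOf (r ^ 2) = 2 := by
    rw [orderOf_pow' r (by norm_num), hr]
    norm_num
  set C := centralizer ({r ^ 2} : Set G) with hCdef
  have hSC : (S : Subgroup G) ≤ C := by
    intro x hx
    rw [hCdef, mem_centralizer_singleton_iff]
    exact hcen x hx
  obtain ⟨N, hNn, hNodd, k, hk⟩ := Cfsg.Agent.S0514.result S 4 (by norm_num) ⟨e⟩ (r ^ 2) ht
  have h8 : 8 ∣ Nat.card C := by
    rw [← h8S]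
    exact Subgroup.card_dvd_of_le hSC
  obtain ⟨l, hl⟩ := h8
  have hix := Subgroup.card_mul_index C
  rw [hG, hl] at hix
  set I := C.index with hI
  have hlI : l * I = 21945 := by
    have : 8 * (l * I) = 175560 := by rw [← hix]; ring
    omega
  have hlodd : Nat.Coprime 2 l := by
    rw [Nat.coprime_two_left]
    by_contra hne
    rw [Nat.not_odd_iff_even] at hne
    obtain ⟨b, rfl⟩ := hne
    have : 2 * (b * I) = 21945 := by rw [← hlI]; ring
    omega
  -- the odd normal subgroup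
  have hNcard := Subgroup.card_mul_index N
  rw [hk, hl] at hNcard
  have hNl : Nat.card N = l := by
    have hNodd' : Nat.Coprime 2 (Nat.card N) := Nat.coprime_two_left.2 hNodd
    have h2k : 2 ^ k = 8 := by
      have ha : 2 ^ k ∣ 8 := by
        have h3 : 2 ^ k ∣ 8 * l := ⟨Nat.card N, by rw [← hNcard]; ring⟩
        exact Nat.Coprime.dvd_of_dvd_mul_right (Nat.Coprime.pow_left _ hlodd) h3
      have hb : 8 ∣ 2 ^ k := by
        have h3 : 8 ∣ Nat.card N * 2 ^ k := ⟨l, hNcard⟩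
        have h9 : Nat.Coprime 8 (Nat.card N) := by
          have : (8 : ℕ) = 2 ^ 3 := by norm_num
          rw [this]
          exact Nat.Coprime.pow_left _ hNodd'
        exact h9.dvd_of_dvd_mul_left h3
      exact Nat.dvd_antisymm ha hb
    rw [h2k] at hNcard
    omega
  set O : Subgroup G := N.map C.subtype with hOdef
  have hOc : Nat.card O = l := by
    rw [hOdef, ← hNl]
    exact (Nat.card_congr (N.equivMapOfInjective C.subtype C.subtype_injective).toEquiv).symm
  have hOC : O ≤ C := map_subtype_le N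
  have hOn : ∀ c ∈ C, ∀ x ∈ O, c * x * c⁻¹ ∈ O := by
    rintro c hc _ ⟨n, hn, rfl⟩
    refine ⟨⟨c, hc⟩ * n * ⟨c, hc⟩⁻¹, hNn.conj_mem n hn ⟨c, hc⟩, ?_⟩
    simp
  -- primes `5, 7, 19`
  have hprime : ∀ {p : ℕ} [Fact p.Prime], (p = 5 ∨ p = 7 ∨ p = 19) → ¬ p ∣ l := by
    intro p hp hp' hpl
    obtain ⟨b, hb⟩ := hpl
    have hm : ¬ p ∣ 8 * b := by
      intro hpb
      have hp2' : Nat.Coprime p 8 := by
        rcases hp' with rfl | rfl | rfl <;> norm_num
      have hpb' : p ∣ b := hp2'.dvd_of_dvd_mul_left hpb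
      obtain ⟨c, hc⟩ := hpb'
      have h3 : p * p ∣ 21945 := ⟨c * I, by rw [← hlI, hb, hc]; ring⟩
      rcases hp' with rfl | rfl | rfl <;> omega
    have hCc : Nat.card C = p * (8 * b) := by rw [hl, hb]; ring
    have hno2 := odd_sylow_count (p := p) (by rcases hp' with rfl | rfl | rfl <;> norm_num) N hNodd k hk
    obtain ⟨Q, hQC, hQ, hQN⟩ := sylow_fix_in (q := 2) C (S : Subgroup G) hSC hCc hm S.isPGroup' hno2
    have hfour := four_dvd_cent (S : Subgroup G) Q h8S hQ hQN (by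
      intro x hx
      rcases hsq x hx with h3 | h3
      · rw [h3]; exact one_mem _
      · rw [h3, mem_centralizer_iff]
        intro h hh
        exact mem_centralizer_singleton_iff.1 (hQC hh))
    exact no_four hG h1 p hp' Q hQ hfour
  have hl5 := hprime (p := 5) (by norm_num)
  have hl7 := hprime (p := 7) (by norm_num)
  have hl19 := hprime (p := 19) (by norm_num)
  have hld : l ∈ Nat.divisors 21945 := Nat.mem_divisors.2 ⟨⟨I, hlI.symm⟩, by norm_num⟩
  obtain ⟨a, ha, hd4, hd8, hcount⟩ := d8_count hG S h1 hrS hsS hr hs hsr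
  set d := Nat.card (centralizer ({r} : Set G)) with hddef
  rw [← hCdef] at ha hcount
  have hd0 : 0 < d := Nat.card_pos
  have hddvd : d ∣ 8 * l := ⟨a, by rw [← hl, ← ha]; ring⟩
  have ha' : ∀ v, 8 * l = v → a = v / d := by
    rintro v rfl
    rw [← hl, ← ha]
    exact (Nat.mul_div_cancel _ hd0).symm
  rcases arithL l hld hl5 hl7 hl19 with rfl | rfl | rfl | rfl
  · have hI' : I = 21945 := by omega
    rw [← hI, hI', ha' 8 rfl] at hcount
    exact arith1 d (Nat.mem_divisors.2 ⟨hddvd, by norm_num⟩) hd4 hd8 hcount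
  · have hI' : I = 7315 := by omega
    rw [← hI, hI', ha' 24 rfl] at hcount
    exact arith3 d (Nat.mem_divisors.2 ⟨hddvd, by norm_num⟩) hd4 hd8 hcount
  · have hI' : I = 1995 := by omega
    rw [← hI, hI', ha' 88 rfl] at hcount
    exact arith11 d (Nat.mem_divisors.2 ⟨hddvd, by norm_num⟩) hd4 hd8 hcount
  · have hI' : I = 665 := by omega
    rw [← hI, hI', ha' 264 rfl] at hcount
    have hd' := arith33 d (Nat.mem_divisors.2 ⟨hddvd, by norm_num⟩) hd4 hd8 hcount
    exact d8_last hG h1 hr hs hsr (by rw [← hCdef, hl]) O hOc hOC hOn hd'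

end Dih

end Cfsg.Agent.Lib.U175
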