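import Cfsg.Agent.Lib.U175.Tools
import Cfsg.Agent.Lib.U175.A
import Cfsg.Agent.Lib.FG7.FrobeniusCount

/-!
# The elementary abelian case: involution centralizers have order 120
-/

set_option autoImplicit false

namespace Cfsg.Agent.Lib.U175

open Subgroup

section E8

variable {G : Type*} [Group G] [Finite G] [IsSimpleGroup G]

theorem arithE : ∀ l ∈ Nat.divisors 21945, (1 + 21945 / l) % 8 = 0 →
    l = 7 ∨ l = 15 ∨ l = 55 ∨ l = 95 ∨ l = 231 ∨ l = 399 ∨ l = 1463 ∨ l = 3135 := by decide +kernel

/-- The number of solutions of `u ^ 8 = 1` when Sylow subgroups have exponent two. -/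
theorem count_e8 (hG : Nat.card G = 175560)
    (h1 : ∀ x y : G, orderOf x = 2 → orderOf y = 2 → ∃ g : G, g * x * g⁻¹ = y)
    (S : Sylow 2 G) (hS : ∀ x ∈ (S : Subgroup G), x ^ 2 = 1) (t : G) (ht : orderOf t = 2) :
    8 ∣ 1 + (centralizer ({t} : Set G)).index := by
  classical
  have hF := Cfsg.Agent.Lib.FG7.FrobeniusCount.pow_dvd_card_pow_eq_one Nat.prime_two G 3
  have hfac : 3 ≤ (Nat.card G).factorization 2 := by
    rw [← Nat.Prime.pow_dvd_iff_le_factorization Nat.prime_two (by rw [hG]; norm_num), hG]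
    norm_num
  rw [min_eq_left hfac] at hF
  have ht2 : t ^ 2 = 1 := by rw [← ht]; exact pow_orderOf_eq_one t
  have hset : {u : G | u ^ (2 ^ 3) = 1} = insert 1 {u : G | IsConj t u} := by
    ext u
    simp only [Set.mem_ofPred_eq, Set.mem_insert_iff]
    constructor
    · intro hu
      by_cases hu1 : u = 1
      · exact Or.inl hu1
      right
      have hpg : IsPGroup 2 (zpowers u) := by
        rw [IsPGroup.iff_card]
        have h2 : orderOf u ∣ 2 ^ 3 := orderOf_dvd_of_pow_eq_one hu
        obtain ⟨k, -, hk⟩ := (Nat.dvd_prime_pow Nat.prime_two).1 h2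
        exact ⟨k, by rw [Nat.card_zpowers, hk]⟩
      obtain ⟨S', hS'⟩ := hpg.exists_le_sylow
      obtain ⟨g, hg⟩ := MulAction.exists_smul_eq G S' S
      have hu' : g * u * g⁻¹ ∈ (S : Subgroup G) := by
        rw [← hg, Sylow.smul_def]
        exact Subgroup.smul_mem_pointwise_smul u (MulAut.conj g) _ (hS' (mem_zpowers u))
      have h2 := hS _ hu'
      have hu2 : u ^ 2 = 1 := by
        have : g * u ^ 2 * g⁻¹ = 1 := by
          rw [← conj_pow]; exact h2
        rwa [conj_eq_one_iff] at this
      have hou : orderOf u = 2 := orderOf_eq_prime hu2 hu1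
      obtain ⟨c, hc⟩ := h1 t u ht hou
      exact isConj_iff.2 ⟨c, hc⟩
    · rintro (rfl | hu)
      · simp
      · obtain ⟨c, rfl⟩ := isConj_iff.1 hu
        rw [conj_pow]
        have : t ^ (2 ^ 3) = 1 := by
          calc t ^ 2 ^ 3 = (t ^ 2) ^ 4 := by rw [← pow_mul]; norm_num
            _ = 1 := by rw [ht2, one_pow]
        rw [this]; group
  have e1 : Nat.card {u : G // u ^ (2 ^ 3) = 1} = ({u : G | u ^ (2 ^ 3) = 1} : Set G).ncard :=
    Nat.card_coe_set_eq _
  have e2 : Nat.card {u : G // IsConj t u} = ({u : G | IsConj t u} : Set G).ncard :=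
    Nat.card_coe_set_eq _
  have h1n : (1 : G) ∉ ({u : G | IsConj t u} : Set G) := by
    intro h
    have h3 : t = 1 := isConj_one_right.1 (IsConj.symm h)
    rw [h3, orderOf_one] at ht
    omega
  rw [e1, hset, Set.ncard_insert_of_notMem h1n (Set.toFinite _), ← e2,
    Cfsg.Agent.Lib.FG7.FrobeniusCount.card_isConj_eq_index] at hF
  simpa [add_comm] using hF

/-- A two-fold `count_in`. -/
theorem count_cent {p m : ℕ} [hp : Fact p.Prime] (t : G) (ht : orderOf t = 2) (hp2 : p ≠ 2)
    (hC : Nat.card (centralizer ({t} : Set G)) = p * m) (hm : ¬ p ∣ m)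
    (Q : Subgroup G) (hQ : Nat.card Q = p) (hQC : Q ≤ centralizer ({t} : Set G)) :
    Nat.card (Sylow p (centralizer ({t} : Set G))) % p = 1 ∧
      Nat.card (Sylow p (centralizer ({t} : Set G))) * (2 * p) ∣ p * m := by
  obtain ⟨n, hn, hn2, hn3⟩ := count_in _ Q hC hm hQ hQC
  rw [← hn3]
  refine ⟨hn, ?_⟩
  have h1 : p ∣ Nat.card (centralizer ({t} : Set G) ⊓ normalizer (Q : Set G) : Subgroup G) := by
    rw [← hQ]; exact Subgroup.card_dvd_of_le (le_inf hQC le_normalizer)
  have h2 : 2 ∣ Nat.card (centralizer ({t} : Set G) ⊓ normalizer (Q : Set G) : Subgroup G) := by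
    have htm : t ∈ (centralizer ({t} : Set G) ⊓ normalizer (Q : Set G) : Subgroup G) := by
      refine mem_inf.2 ⟨mem_centralizer_singleton_iff.2 rfl, ?_⟩
      apply centralizer_le_normalizer
      rw [mem_centralizer_iff]
      intro h hh
      have := (mem_centralizer_singleton_iff.1 (hQC hh))
      exact this
    have := orderOf_dvd_natCard (⟨t, htm⟩ : (centralizer ({t} : Set G) ⊓ normalizer (Q : Set G) : Subgroup G))
    rwa [Subgroup.orderOf_mk, ht] at this
  have h3 : 2 * p ∣ Nat.card (centralizer ({t} : Set G) ⊓ normalizer (Q : Set G) : Subgroup G) :=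
    Nat.Coprime.mul_dvd_of_dvd_of_dvd ((Nat.coprime_primes Nat.prime_two hp.out).2 (Ne.symm hp2)) h2 h1
  rw [← hC, ← hn2]
  exact Nat.mul_dvd_mul_left _ h3

theorem e8_fix_contra (hG : Nat.card G = 175560)
    (h1 : ∀ x y : G, orderOf x = 2 → orderOf y = 2 → ∃ g : G, g * x * g⁻¹ = y)
    (S : Sylow 2 G) (hS : ∀ x ∈ (S : Subgroup G), x ^ 2 = 1) (t : G)
    (hSC : (S : Subgroup G) ≤ centralizer ({t} : Set G)) {p m : ℕ} [hp : Fact p.Prime]
    (hp' : p = 5 ∨ p = 7 ∨ p = 19)
    (hC : Nat.card (centralizer ({t} : Set G)) = p * m) (hm : ¬ p ∣ m)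
    (hodd : ¬ 2 ∣ Nat.card (Sylow p (centralizer ({t} : Set G)))) : False := by
  obtain ⟨Q, -, hQ, hQN⟩ := sylow_fix_in (q := 2) _ (S : Subgroup G) hSC hC hm S.isPGroup' hodd
  have h8 := card_sylow2 hG S
  have := four_dvd_cent (S : Subgroup G) Q h8 hQ hQN (fun x hx => by rw [hS x hx]; exact one_mem _)
  exact no_four hG h1 p hp' Q hQ this

/-- In the group `C(P)`, of order `38`, the involution is unique, so `N(P)` centralizes it. -/
theorem norm_le_cent_of_38 {P : Subgroup G} (hP : Nat.card P = 19) {t : G} (ht : orderOf t = 2)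
    (htC : t ∈ centralizer (P : Set G)) (h38 : Nat.card (centralizer (P : Set G)) = 38) :
    normalizer (P : Set G) ≤ centralizer ({t} : Set G) := by
  intro n hn
  rw [mem_centralizer_singleton_iff]
  -- the conjugate `x` lies in `C(P)`
  set x := n * t * n⁻¹ with hx
  have hxC : x ∈ centralizer (P : Set G) := by
    rw [mem_centralizer_iff]
    intro p hp
    have hp' : n⁻¹ * p * n ∈ P := by
      have := (mem_normalizer_iff.1 (inv_mem hn) p).1 hp
      simpa using this
    have h2 := (mem_centralizer_iff.1 htC) _ hp'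
    calc p * x = n * ((n⁻¹ * p * n) * t) * n⁻¹ := by rw [hx]; group
      _ = n * (t * (n⁻¹ * p * n)) * n⁻¹ := by rw [h2]
      _ = x * p := by rw [hx]; group
  have hPle : P ≤ centralizer (P : Set G) := by
    haveI : IsCyclic P := isCyclic_of_prime_card hP
    intro a ha
    rw [mem_centralizer_iff]
    intro b hb
    exact congrArg Subtype.val ((IsCyclic.commGroup (α := P)).mul_comm ⟨b, hb⟩ ⟨a, ha⟩)
  have hidx : (P.subgroupOf (centralizer (P : Set G))).index = 2 := by
    have h2 := Subgroup.card_mul_index (P.subgroupOf (centralizer (P : Set G)))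
    have h3 : Nat.card (P.subgroupOf (centralizer (P : Set G))) = 19 := by
      rw [← hP]; exact Nat.card_congr (subgroupOfEquivOfLe hPle).toEquiv
    rw [h3, h38] at h2
    omega
  have htP : t ∉ P := by
    intro h
    have h2 := orderOf_dvd_natCard (⟨t, h⟩ : P)
    rw [Subgroup.orderOf_mk, ht, hP] at h2
    omega
  have hxo : orderOf x = 2 := by
    rw [hx, ← ht]
    exact MulEquiv.orderOf_eq (MulAut.conj n) t
  have hxP : x ∉ P := by
    intro h
    have h2 := orderOf_dvd_natCard (⟨x, h⟩ : P)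
    rw [Subgroup.orderOf_mk, hxo, hP] at h2
    omega
  have hmul : t * x ∈ P := by
    have h3 := Subgroup.mul_mem_iff_of_index_two hidx (a := ⟨t, htC⟩) (b := ⟨x, hxC⟩)
    have h4 : (⟨t, htC⟩ * ⟨x, hxC⟩ : centralizer (P : Set G)) ∈ P.subgroupOf (centralizer (P : Set G)) := by
      rw [h3]
      constructor
      · intro h
        exact absurd h htP
      · intro h
        exact absurd h hxP
    exact h4
  set p := t * x with hp
  have hcomm : t * p = p * t := (mem_centralizer_iff.1 htC p hmul).symm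
  have hx2 : x = t * p := by
    have ht2 : t * t = 1 := by rw [← sq, ← ht]; exact pow_orderOf_eq_one t
    rw [hp, ← mul_assoc, ht2, one_mul]
  have hp2 : p ^ 2 = 1 := by
    have hx3 : x ^ 2 = 1 := by rw [← hxo]; exact pow_orderOf_eq_one x
    have ht2 : t ^ 2 = 1 := by rw [← ht]; exact pow_orderOf_eq_one t
    have hc : Commute t p := hcomm
    rw [hx2, hc.mul_pow, ht2, one_mul] at hx3
    exact hx3
  have hp1 : p = 1 := by
    have h2 : orderOf p ∣ 2 := orderOf_dvd_of_pow_eq_one hp2
    have h3 := orderOf_dvd_natCard (⟨p, hmul⟩ : P)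
    rw [Subgroup.orderOf_mk, hP] at h3
    have h4 : orderOf p ∣ Nat.gcd 2 19 := Nat.dvd_gcd h2 h3
    have h5 : orderOf p = 1 := by simpa using h4
    exact orderOf_eq_one_iff.1 h5
  have e : n * t * n⁻¹ = t := by
    have e2 : x = t := by rw [hx2, hp1, mul_one]
    exact e2
  calc n * t = (n * t * n⁻¹) * n := by group
    _ = t * n := by rw [e]

theorem arithS : ∀ n ∈ Nat.divisors 4, n % 7 = 1 → n = 1 := by decide +kernel

theorem e8_card (hG : Nat.card G = 175560)
    (h1 : ∀ x y : G, orderOf x = 2 → orderOf y = 2 → ∃ g : G, g * x * g⁻¹ = y)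
    (S : Sylow 2 G) (hS : ∀ x ∈ (S : Subgroup G), x ^ 2 = 1) (t : G) (ht : orderOf t = 2)
    (htS : t ∈ (S : Subgroup G)) : Nat.card (centralizer ({t} : Set G)) = 120 := by
  have hcomm : ∀ x ∈ (S : Subgroup G), ∀ y ∈ (S : Subgroup G), x * y = y * x := by
    intro x hx y hy
    have h2 := hS _ (mul_mem hx hy)
    have h3 := hS _ hx
    have h4 := hS _ hy
    rw [sq] at h2 h3 h4
    have e1 : x⁻¹ = x := inv_eq_of_mul_eq_one_left h3
    have e2 : y⁻¹ = y := inv_eq_of_mul_eq_one_left h4
    calc x * y = (x * y) * ((x * y) * (y * x)) := by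
          have : (x * y) * (y * x) = 1 := by
            calc (x * y) * (y * x) = x * (y * y) * x := by group
              _ = 1 := by rw [h4, mul_one, h3]
          rw [this, mul_one]
      _ = ((x * y) * (x * y)) * (y * x) := by group
      _ = y * x := by rw [h2, one_mul]
  have hSC : (S : Subgroup G) ≤ centralizer ({t} : Set G) := by
    intro x hx
    rw [mem_centralizer_singleton_iff]
    exact hcomm x hx t htS
  have h8 : 8 ∣ Nat.card (centralizer ({t} : Set G)) := by
    rw [← card_sylow2 hG S]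
    exact Subgroup.card_dvd_of_le hSC
  obtain ⟨l, hl⟩ := h8
  have hix := Subgroup.card_mul_index (centralizer ({t} : Set G))
  rw [hG, hl] at hix
  have hF := count_e8 hG h1 S hS t ht
  set I := (centralizer ({t} : Set G)).index with hI
  have hlI : l * I = 21945 := by
    have : 8 * (l * I) = 175560 := by rw [← hix]; ring
    omega
  have hl0 : 0 < l := by
    rcases Nat.eq_zero_or_pos l with h | h
    · rw [h] at hlI; omega
    · exact h
  have hI2 : 21945 / l = I := by
    rw [← hlI]; exact Nat.mul_div_cancel_left _ hl0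
  have hld : l ∈ Nat.divisors 21945 := Nat.mem_divisors.2 ⟨⟨I, hlI.symm⟩, by norm_num⟩
  have hl8 : (1 + 21945 / l) % 8 = 0 := by
    rw [hI2]; omega
  have hcases := arithE l hld hl8
  have htmem : t ∈ centralizer ({t} : Set G) := mem_centralizer_singleton_iff.2 rfl
  -- elements of prime order in `C(t)`
  have hex : ∀ {q : ℕ} [Fact q.Prime], q ∣ Nat.card (centralizer ({t} : Set G)) →
      ∃ Q : Subgroup G, Nat.card Q = q ∧ Q ≤ centralizer ({t} : Set G) := by
    intro q _ hq
    obtain ⟨y, hyC, hy⟩ := exists_order_of_dvd (q := q) _ hq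
    refine ⟨zpowers y, by rw [Nat.card_zpowers, hy], ?_⟩
    rw [zpowers_le]; exact hyC
  -- the case `19 ∣ l`
  have h19case : 19 ∣ l → False := by
    intro h19
    obtain ⟨P, hP, hPC⟩ := hex (q := 19) (by rw [hl]; exact Dvd.dvd.mul_left h19 _)
    have htC : t ∈ centralizer (P : Set G) := by
      rw [mem_centralizer_iff]
      intro h hh
      exact (mem_centralizer_singleton_iff.1 (hPC hh))
    have hN := norm19 hG h1 P hP
    have hcd := card_cent_dvd_norm P
    rw [hN] at hcd
    have hne := cent_ne_norm (p := 19) (m := 9240) (by rw [hG]) (by norm_num) (by norm_num) P hP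
    rw [hN] at hne
    have h2 : 2 ∣ Nat.card (centralizer (P : Set G)) := by
      have := orderOf_dvd_natCard (⟨t, htC⟩ : centralizer (P : Set G))
      rwa [Subgroup.orderOf_mk, ht] at this
    have h19' : 19 ∣ Nat.card (centralizer (P : Set G)) := by
      rw [← hP]
      apply Subgroup.card_dvd_of_le
      haveI : IsCyclic P := isCyclic_of_prime_card hP
      intro a ha
      rw [mem_centralizer_iff]
      intro b hb
      exact congrArg Subtype.val ((IsCyclic.commGroup (α := P)).mul_comm ⟨b, hb⟩ ⟨a, ha⟩)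
    have h38 : Nat.card (centralizer (P : Set G)) = 38 := by
      have h3 : 38 ∣ Nat.card (centralizer (P : Set G)) :=
        Nat.Coprime.mul_dvd_of_dvd_of_dvd (by norm_num : Nat.Coprime 2 19) h2 h19'
      obtain ⟨a, ha⟩ := h3
      obtain ⟨b, hb⟩ := hcd
      rw [ha] at hb hne ⊢
      have hb' : a * b = 3 := by
        have : 38 * (a * b) = 114 := by rw [← mul_assoc]; exact hb.symm
        omega
      have ha3 : a ∣ 3 := ⟨b, hb'.symm⟩
      have : a = 1 ∨ a = 3 := (Nat.dvd_prime (by norm_num)).1 ha3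
      rcases this with rfl | rfl
      · rfl
      · omega
    have hle := norm_le_cent_of_38 hP ht htC h38
    -- count
    have hinf : (centralizer ({t} : Set G) ⊓ normalizer (P : Set G) : Subgroup G) = normalizer (P : Set G) :=
      inf_eq_right.2 hle
    have hm : 19 ∣ l → ¬ 19 ∣ (8 * l / 19) := by
      intro _
      rcases hcases with rfl | rfl | rfl | rfl | rfl | rfl | rfl | rfl <;> omega
    have hCc : Nat.card (centralizer ({t} : Set G)) = 19 * (8 * l / 19) := by
      rw [hl]
      obtain ⟨a, rfl⟩ := h19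
      have : 8 * (19 * a) / 19 = 8 * a := by omega
      rw [this]; ring
    obtain ⟨n, hn, hn2, -⟩ := count_in _ P hCc (hm h19) hP hPC
    rw [hinf, hN, hl] at hn2
    rcases hcases with rfl | rfl | rfl | rfl | rfl | rfl | rfl | rfl <;> omega
  rcases hcases with rfl | rfl | rfl | rfl | rfl | rfl | rfl | rfl
  · -- `l = 7`
    exfalso
    obtain ⟨U, hU, hUC⟩ := hex (q := 7) (by rw [hl]; norm_num)
    have hc := count_cent (p := 7) (m := 8) t ht (by norm_num) (by rw [hl]) (by norm_num) U hU hUC
    refine e8_fix_contra hG h1 S hS t hSC (p := 7) (m := 8) (by norm_num) (by rw [hl]) (by norm_num) ?_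
    obtain ⟨hc1, hc2⟩ := hc
    generalize Nat.card (Sylow 7 (centralizer ({t} : Set G))) = n at hc1 hc2 ⊢
    have h5 : n ∣ 4 := by
      obtain ⟨a, ha⟩ := hc2
      have h : 14 * (n * a) = 56 := by
        rw [show 14 * (n * a) = n * (2 * 7) * a by ring]; exact ha.symm
      exact ⟨a, by omega⟩
    have := arithS n (Nat.mem_divisors.2 ⟨h5, by norm_num⟩) hc1
    omega
  · rw [hl]
  · -- `l = 55`
    exfalso
    obtain ⟨U, hU, hUC⟩ := hex (q := 5) (by rw [hl]; norm_num)
    have hc := count_cent (p := 5) (m := 88) t ht (by norm_num) (by rw [hl]) (by norm_num) U hU hUC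
    refine e8_fix_contra hG h1 S hS t hSC (p := 5) (m := 88) (by norm_num) (by rw [hl]) (by norm_num) ?_
    obtain ⟨hc1, hc2⟩ := hc
    generalize Nat.card (Sylow 5 (centralizer ({t} : Set G))) = n at hc1 hc2 ⊢
    have h5 : n ∣ 44 := by
      obtain ⟨a, ha⟩ := hc2
      have h : 10 * (n * a) = 440 := by
        rw [show 10 * (n * a) = n * (2 * 5) * a by ring]; exact ha.symm
      exact ⟨a, by omega⟩
    have h6 : n ∈ Nat.divisors 44 := Nat.mem_divisors.2 ⟨h5, by norm_num⟩
    have : ∀ n ∈ Nat.divisors 44, n % 5 = 1 → ¬ 2 ∣ n := by decide +kernel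
    exact this n h6 hc1
  · exact (h19case (by norm_num)).elim
  · -- `l = 231`
    exfalso
    obtain ⟨U, hU, hUC⟩ := hex (q := 11) (by rw [hl]; norm_num)
    have hc := count_cent (p := 11) (m := 168) t ht (by norm_num) (by rw [hl]) (by norm_num) U hU hUC
    obtain ⟨y, hyC, hy⟩ := exists_order_of_dvd (q := 7) _ (by rw [hl]; norm_num : 7 ∣ Nat.card (centralizer ({t} : Set G)))
    have hLp : IsPGroup 7 (zpowers y) := IsPGroup.of_card (n := 1) (by rw [Nat.card_zpowers, hy]; rfl)
    have hno7 : ¬ 7 ∣ Nat.card (Sylow 11 (centralizer ({t} : Set G))) := by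
      obtain ⟨hc1, hc2⟩ := hc
      generalize Nat.card (Sylow 11 (centralizer ({t} : Set G))) = n at hc1 hc2 ⊢
      have h5 : n ∣ 84 := by
        obtain ⟨a, ha⟩ := hc2
        have h : 22 * (n * a) = 1848 := by
          rw [show 22 * (n * a) = n * (2 * 11) * a by ring]; exact ha.symm
        exact ⟨a, by omega⟩
      have h6 : n ∈ Nat.divisors 84 := Nat.mem_divisors.2 ⟨h5, by norm_num⟩
      have : ∀ n ∈ Nat.divisors 84, n % 11 = 1 → ¬ 7 ∣ n := by decide +kernel
      exact this n h6 hc1
    obtain ⟨Q, -, hQ, hQN⟩ := sylow_fix_in (p := 11) (q := 7) (m := 168) _ (zpowers y)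
      (by rw [zpowers_le]; exact hyC) (by rw [hl]) (by norm_num) hLp hno7
    have hyN : y ∈ normalizer (Q : Set G) := hQN (mem_zpowers y)
    have hyQ := mem_cent_of_norm hQ hyN (by rw [hy]; norm_num)
    apply no_7_11 (zpowers y) hG (by rw [Nat.card_zpowers, hy])
    rw [← hQ]
    apply Subgroup.card_dvd_of_le
    intro a ha
    rw [mem_centralizer_iff]
    intro b hb
    obtain ⟨i, rfl⟩ := mem_zpowers_iff.1 hb
    have hc' : Commute y a := (mem_centralizer_iff.1 hyQ a ha).symm
    exact (hc'.zpow_left i).eq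
  · exact (h19case (by norm_num)).elim
  · exact (h19case (by norm_num)).elim
  · exact (h19case (by norm_num)).elim

end E8

end Cfsg.Agent.Lib.U175
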