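import Cfsg.Agent.Lib.U175.Loc19

/-!
# Local consequences: no elements of order 5·19, 7·19, 11·19, 7·11 and four-groups centralizing 5, 7
-/

set_option autoImplicit false

namespace Cfsg.Agent.Lib.U175

open Subgroup

section Loc

variable {G : Type*} [Group G] [Finite G] [IsSimpleGroup G]

/-- An element of `N(P)` of order prime to `p - 1` centralizes `P`. -/
theorem mem_cent_of_norm {p : ℕ} [hp : Fact p.Prime] {P : Subgroup G} (hP : Nat.card P = p) {x : G}
    (hx : x ∈ normalizer (P : Set G)) (hc : Nat.Coprime (orderOf x) (p - 1)) :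
    x ∈ centralizer (P : Set G) := by
  haveI : IsCyclic P := isCyclic_of_prime_card hP
  let f := P.normalizerMonoidHom
  have h4 : Nat.card (MulAut P) = p - 1 := by
    rw [IsCyclic.card_mulAut, hP, Nat.totient_prime hp.out]
  have h1 : orderOf (f ⟨x, hx⟩) ∣ orderOf x := by
    have := orderOf_map_dvd f ⟨x, hx⟩
    rwa [Subgroup.orderOf_mk] at this
  have h2 : orderOf (f ⟨x, hx⟩) ∣ p - 1 := by
    rw [← h4]; exact orderOf_dvd_natCard _
  have h3 : orderOf (f ⟨x, hx⟩) = 1 := Nat.eq_one_of_dvd_coprimes hc h1 h2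
  have h5 : (⟨x, hx⟩ : normalizer (P : Set G)) ∈ f.ker := by
    rw [MonoidHom.mem_ker]
    exact orderOf_eq_one_iff.1 h3
  rw [normalizerMonoidHom_ker] at h5
  exact h5

theorem no_q_19 (hG : Nat.card G = 175560)
    (h1 : ∀ x y : G, orderOf x = 2 → orderOf y = 2 → ∃ g : G, g * x * g⁻¹ = y)
    {q : ℕ} [hq : Fact q.Prime] (hq114 : ¬ q ∣ 114) (U : Subgroup G) (hU : Nat.card U = q) :
    ¬ 19 ∣ Nat.card (centralizer (U : Set G)) := by
  intro h
  obtain ⟨x, hxC, hx⟩ := exists_order_of_dvd (q := 19) _ h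
  obtain ⟨y, hyU, hy⟩ := exists_order_of_dvd (q := q) U (by rw [hU])
  have hP : Nat.card (zpowers x) = 19 := by rw [Nat.card_zpowers, hx]
  have hyC : y ∈ centralizer ((zpowers x : Subgroup G) : Set G) := by
    rw [mem_centralizer_iff]
    intro h' hh
    obtain ⟨i, rfl⟩ := mem_zpowers_iff.1 hh
    have hc : Commute x y := ((mem_centralizer_iff.1 hxC) y hyU).symm
    exact ((hc.zpow_left i)).symm.eq.symm
  have h2 : q ∣ Nat.card (centralizer ((zpowers x : Subgroup G) : Set G)) := by
    have := orderOf_dvd_natCard (⟨y, hyC⟩ : centralizer ((zpowers x : Subgroup G) : Set G))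
    rwa [Subgroup.orderOf_mk, hy] at this
  have h3 := dvd_trans h2 (card_cent_dvd_norm (zpowers x))
  rw [norm19 hG h1 _ hP] at h3
  exact hq114 h3

theorem arith5 : ∀ n ∈ Nat.divisors 21945, n % 5 = 1 → ¬ 19 ∣ n := by decide +kernel

theorem no_45 (hG : Nat.card G = 175560)
    (h1 : ∀ x y : G, orderOf x = 2 → orderOf y = 2 → ∃ g : G, g * x * g⁻¹ = y)
    (Q : Subgroup G) (hQ : Nat.card Q = 5) : ¬ 4 ∣ Nat.card (centralizer (Q : Set G)) := by
  intro h4
  have h19 := no_q_19 hG h1 (q := 5) (by norm_num) Q hQ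
  have hd := card_norm_dvd Q hQ
  have hcd := card_cent_dvd_norm Q
  have hne := cent_ne_norm (p := 5) (m := 35112) (by rw [hG]) (by norm_num) (by norm_num) Q hQ
  have hmod := index_mod (p := 5) (m := 35112) (by rw [hG]) (by norm_num) Q hQ
  have hix := Subgroup.card_mul_index (normalizer (Q : Set G))
  rw [hG] at hix
  obtain ⟨e, he⟩ := hcd
  rw [he] at hd hne hix
  set c := Nat.card (centralizer (Q : Set G)) with hc
  have hc0 : 0 < c := Nat.card_pos
  have he4 : e ∣ 4 := by
    have : c * e ∣ c * 4 := by simpa using hd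
    exact (Nat.mul_dvd_mul_iff_left hc0).1 this
  have he1 : e ≠ 1 := by
    rintro rfl
    simp at hne
  obtain ⟨c', hc'⟩ := h4
  set n := (normalizer (Q : Set G)).index with hn
  have he' : e = 2 ∨ e = 4 := by
    have := Nat.le_of_dvd (by norm_num) he4
    interval_cases e <;> simp_all
  rcases he' with rfl | rfl
  · have h5 : n * c' = 21945 := by
      rw [hc'] at hix
      nlinarith
    have h6 : 19 ∣ n * c' := by rw [h5]; norm_num
    rcases (Nat.Prime.dvd_mul (by norm_num)).1 h6 with h7 | h7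
    · exact arith5 n (Nat.mem_divisors.2 ⟨⟨c', h5.symm⟩, by norm_num⟩) hmod h7
    · apply h19
      rw [hc']
      exact Dvd.dvd.mul_left h7 _
  · rw [hc'] at hix
    have : 16 * (c' * n) = 175560 := by rw [← hix]; ring
    omega

theorem list11 : ∀ n ∈ Nat.divisors 2280, n % 11 = 1 → n = 1 ∨ n = 12 ∨ n = 760 := by decide +kernel

theorem no_7_11 (U : Subgroup G) (hG : Nat.card G = 175560) (hU : Nat.card U = 7) :
    ¬ 11 ∣ Nat.card (centralizer (U : Set G)) := by
  intro h
  obtain ⟨x, hxC, hx⟩ := exists_order_of_dvd (q := 11) _ h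
  obtain ⟨y, hyU, hy⟩ := exists_order_of_dvd (q := 7) U (by rw [hU])
  have hQ : Nat.card (zpowers x) = 11 := by rw [Nat.card_zpowers, hx]
  set Q : Subgroup G := zpowers x with hQdef
  have hyC : y ∈ centralizer (Q : Set G) := by
    rw [mem_centralizer_iff]
    intro h' hh
    obtain ⟨i, rfl⟩ := mem_zpowers_iff.1 hh
    have hc : Commute x y := ((mem_centralizer_iff.1 hxC) y hyU).symm
    exact ((hc.zpow_left i)).symm.eq.symm
  have h7 : 7 ∣ Nat.card (centralizer (Q : Set G)) := by
    have := orderOf_dvd_natCard (⟨y, hyC⟩ : centralizer (Q : Set G))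
    rwa [Subgroup.orderOf_mk, hy] at this
  have hcd := card_cent_dvd_norm Q
  have h7N := dvd_trans h7 hcd
  have h11N : 11 ∣ Nat.card (normalizer (Q : Set G)) := by
    rw [← hQ]; exact Subgroup.card_dvd_of_le le_normalizer
  have h77 : 77 ∣ Nat.card (normalizer (Q : Set G)) :=
    Nat.Coprime.mul_dvd_of_dvd_of_dvd (by norm_num : Nat.Coprime 7 11) h7N h11N
  obtain ⟨M, hM⟩ := h77
  have hix := Subgroup.card_mul_index (normalizer (Q : Set G))
  rw [hG, hM] at hix
  have hmod := index_mod (p := 11) (m := 15960) (by rw [hG]) (by norm_num) Q hQ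
  have hdv : (normalizer (Q : Set G)).index ∣ 2280 := by
    refine ⟨M, ?_⟩
    have : 77 * (M * (normalizer (Q : Set G)).index) = 77 * 2280 := by rw [← mul_assoc, hix]
    have := Nat.eq_of_mul_eq_mul_left (by norm_num) this
    rw [← this]; ring
  have hnt := norm_ne_top Q (P_ne_bot hQ) (P_ne_top hG (by norm_num) hQ)
  rcases list11 _ (Nat.mem_divisors.2 ⟨hdv, by norm_num⟩) hmod with h0 | h0 | h0
  · exact hnt (Subgroup.index_eq_one.1 h0)
  · exact comm_fix (p := 11) (q := 7) (m := 15960) (a := 1) (by rw [hG]) (by norm_num) (by norm_num) Q hQ h0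
      (by norm_num) hnt hy hyC
  · have hN : Nat.card (normalizer (Q : Set G)) = 231 :=
      card_norm_eq (p := 11) hG h0 (by norm_num) (by norm_num)
    have hd := card_norm_dvd Q hQ
    rw [hN] at hd hcd
    have hne := cent_ne_norm (p := 11) (m := 15960) (by rw [hG]) (by norm_num) (by norm_num) Q hQ
    rw [hN] at hne
    have h231 : 231 ∣ Nat.card (centralizer (Q : Set G)) :=
      Nat.Coprime.dvd_of_dvd_mul_right (by norm_num : Nat.Coprime 231 (11 - 1)) hd
    exact hne (Nat.dvd_antisymm hcd h231)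

theorem arith7 : ∀ n ∈ Nat.divisors 6270, n % 7 = 1 → 209 ∣ n → n = 1254 := by decide +kernel

theorem no_47 (hG : Nat.card G = 175560)
    (h1 : ∀ x y : G, orderOf x = 2 → orderOf y = 2 → ∃ g : G, g * x * g⁻¹ = y)
    (U : Subgroup G) (hU : Nat.card U = 7) : ¬ 4 ∣ Nat.card (centralizer (U : Set G)) := by
  intro h4
  have h19 := no_q_19 hG h1 (q := 7) (by norm_num) U hU
  have h11 := no_7_11 U hG hU
  have hd := card_norm_dvd U hU
  have hcd := card_cent_dvd_norm U
  have hne := cent_ne_norm (p := 7) (m := 25080) (by rw [hG]) (by norm_num) (by norm_num) U hU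
  have hmod := index_mod (p := 7) (m := 25080) (by rw [hG]) (by norm_num) U hU
  have hix := Subgroup.card_mul_index (normalizer (U : Set G))
  rw [hG] at hix
  have h7c : 7 ∣ Nat.card (centralizer (U : Set G)) := by
    rw [← hU]
    apply Subgroup.card_dvd_of_le
    -- `U` is abelian
    haveI : IsCyclic U := isCyclic_of_prime_card hU
    intro a ha
    rw [mem_centralizer_iff]
    intro b hb
    exact congrArg Subtype.val ((IsCyclic.commGroup (α := U)).mul_comm ⟨b, hb⟩ ⟨a, ha⟩)
  have h28 : 28 ∣ Nat.card (centralizer (U : Set G)) :=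
    Nat.Coprime.mul_dvd_of_dvd_of_dvd (by norm_num : Nat.Coprime 4 7) h4 h7c
  obtain ⟨e, he⟩ := hcd
  rw [he] at hd hne hix
  set c := Nat.card (centralizer (U : Set G)) with hc
  have hc0 : 0 < c := Nat.card_pos
  have he6 : e ∣ 6 := by
    have : c * e ∣ c * 6 := by simpa using hd
    exact (Nat.mul_dvd_mul_iff_left hc0).1 this
  have he1 : e ≠ 1 := by
    rintro rfl
    simp at hne
  obtain ⟨c', hc'⟩ := h28
  set n := (normalizer (U : Set G)).index with hn
  have h5 : n * c' * e = 6270 := by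
    rw [hc'] at hix
    have : 28 * (n * c' * e) = 175560 := by rw [← hix]; ring
    omega
  have he' : e = 2 ∨ e = 3 ∨ e = 6 := by
    have := Nat.le_of_dvd (by norm_num) he6
    interval_cases e <;> simp_all
  have hc19 : ¬ 19 ∣ c' := fun h => h19 (by rw [hc']; exact Dvd.dvd.mul_left h _)
  have hc11 : ¬ 11 ∣ c' := fun h => h11 (by rw [hc']; exact Dvd.dvd.mul_left h _)
  have hn19 : 19 ∣ n := by
    have : 19 ∣ n * (c' * e) := by rw [← mul_assoc, h5]; norm_num
    rcases (Nat.Prime.dvd_mul (by norm_num)).1 this with h6 | h6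
    · exact h6
    · rcases (Nat.Prime.dvd_mul (by norm_num)).1 h6 with h7 | h7
      · exact absurd h7 hc19
      · exfalso
        have := Nat.le_of_dvd (by rcases he' with rfl | rfl | rfl <;> norm_num) h7
        rcases he' with rfl | rfl | rfl <;> omega
  have hn11 : 11 ∣ n := by
    have : 11 ∣ n * (c' * e) := by rw [← mul_assoc, h5]; norm_num
    rcases (Nat.Prime.dvd_mul (by norm_num)).1 this with h6 | h6
    · exact h6
    · rcases (Nat.Prime.dvd_mul (by norm_num)).1 h6 with h7 | h7
      · exact absurd h7 hc11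
      · exfalso
        have := Nat.le_of_dvd (by rcases he' with rfl | rfl | rfl <;> norm_num) h7
        rcases he' with rfl | rfl | rfl <;> omega
  have hn209 : 209 ∣ n := Nat.Coprime.mul_dvd_of_dvd_of_dvd (by norm_num : Nat.Coprime 11 19) hn11 hn19
  have hnd : n ∣ 6270 := ⟨c' * e, by rw [← mul_assoc, h5]⟩
  have h1254 := arith7 n (Nat.mem_divisors.2 ⟨hnd, by norm_num⟩) hmod hn209
  rw [h1254] at h5
  have h6 : c' * e = 5 := by
    have : 1254 * (c' * e) = 6270 := by rw [← mul_assoc]; exact h5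
    omega
  rcases he' with rfl | rfl | rfl <;> omega

theorem no_419 (hG : Nat.card G = 175560)
    (h1 : ∀ x y : G, orderOf x = 2 → orderOf y = 2 → ∃ g : G, g * x * g⁻¹ = y)
    (P : Subgroup G) (hP : Nat.card P = 19) : ¬ 4 ∣ Nat.card (centralizer (P : Set G)) := by
  intro h
  have h3 := dvd_trans h (card_cent_dvd_norm P)
  rw [norm19 hG h1 P hP] at h3
  omega

/-- The combination used in the dihedral case. -/
theorem no_four (hG : Nat.card G = 175560)
    (h1 : ∀ x y : G, orderOf x = 2 → orderOf y = 2 → ∃ g : G, g * x * g⁻¹ = y)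
    (p : ℕ) (hp : p = 5 ∨ p = 7 ∨ p = 19) (P : Subgroup G) (hP : Nat.card P = p) :
    ¬ 4 ∣ Nat.card (centralizer (P : Set G)) := by
  rcases hp with rfl | rfl | rfl
  · exact no_45 hG h1 P hP
  · exact no_47 hG h1 P hP
  · exact no_419 hG h1 P hP

end Loc

end Cfsg.Agent.Lib.U175
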