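import Cfsg.Agent.Lib.U175.Dih
import Cfsg.Agent.Lib.U175.B
import Cfsg.Agent.S1644

/-!
# A simple group of order 175560 is the first Janko group
-/

set_option autoImplicit false

namespace Cfsg.Agent.Lib.U175

open Subgroup

section Main

variable {G : Type*} [Group G] [Finite G] [IsSimpleGroup G]

theorem iso_J1 (hG : Nat.card G = 175560) : Cfsg.Spor.IsoJ1 G := by
  obtain ⟨S⟩ : Nonempty (Sylow 2 G) := inferInstance
  have h8 := card_sylow2 hG S
  have h1 : ∀ x y : G, orderOf x = 2 → orderOf y = 2 → ∃ g : G, g * x * g⁻¹ = y :=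
    fun x y hx hy => one_class hG hx hy
  rcases two_cases hG S with hE | hD
  · obtain ⟨t, htS, ht⟩ := exists_order_of_dvd (q := 2) (S : Subgroup G) (by rw [h8]; norm_num)
    have hC := e8_card hG h1 S hE t ht htS
    have hcomm : ∀ x ∈ (S : Subgroup G), ∀ y ∈ (S : Subgroup G), x * y = y * x := by
      intro x hx y hy
      have h2 := hE _ (mul_mem hx hy)
      have h3 := hE _ hx
      have h4 := hE _ hy
      rw [sq] at h2 h3 h4
      calc x * y = (x * y) * ((x * y) * (y * x)) := by
            have : (x * y) * (y * x) = 1 := by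
              calc (x * y) * (y * x) = x * (y * y) * x := by group
                _ = 1 := by rw [h4, mul_one, h3]
            rw [this, mul_one]
        _ = ((x * y) * (x * y)) * (y * x) := by group
        _ = y * x := by rw [h2, one_mul]
    have hSC : (S : Subgroup G) ≤ centralizer ({t} : Set G) := by
      intro x hx
      rw [mem_centralizer_singleton_iff]
      exact hcomm x hx t htS
    have htC : t ∈ centralizer ({t} : Set G) := mem_centralizer_singleton_iff.2 rfl
    let S' : Sylow 2 (centralizer ({t} : Set G)) := S.subtype hSC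
    have hS' : ∀ x ∈ (S' : Subgroup (centralizer ({t} : Set G))), x ^ 2 = 1 := by
      intro x hx
      have h2 : (x : G) ∈ (S : Subgroup G) := by
        have h3 : x ∈ (S : Subgroup G).subgroupOf (centralizer ({t} : Set G)) := by
          rwa [Sylow.coe_subtype] at hx
        exact h3
      exact Subtype.ext (by simpa using hE _ h2)
    have h5 : ∀ Q : Subgroup (centralizer ({t} : Set G)), Nat.card Q = 5 → ¬ Q.Normal := by
      intro Q hQ hn
      set Q' : Subgroup G := Q.map (centralizer ({t} : Set G)).subtype with hQ'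
      have hQc : Nat.card Q' = 5 := by
        rw [hQ', ← hQ]
        exact (Nat.card_congr (Q.equivMapOfInjective _ (subtype_injective _)).toEquiv).symm
      have hN : (S : Subgroup G) ≤ normalizer (Q' : Set G) := by
        intro x hx
        have hxC := hSC hx
        rw [mem_normalizer_iff]
        intro h
        constructor
        · rintro ⟨q, hq, rfl⟩
          exact ⟨⟨x, hxC⟩ * q * ⟨x, hxC⟩⁻¹, hn.conj_mem q hq ⟨x, hxC⟩, by simp⟩
        · rintro ⟨q, hq, hqe⟩
          refine ⟨⟨x, hxC⟩⁻¹ * q * (⟨x, hxC⟩⁻¹)⁻¹, hn.conj_mem q hq _, ?_⟩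
          simp only [coe_subtype, Subgroup.coe_mul, Subgroup.coe_inv, inv_inv]
          have hqe' : ((q : centralizer ({t} : Set G)) : G) = x * h * x⁻¹ := hqe
          rw [hqe']
          group
      have := four_dvd_cent (S : Subgroup G) Q' h8 hQc hN
        (fun x hx => by rw [hE x hx]; exact one_mem _)
      exact no_45 hG h1 Q' hQc this
    obtain ⟨e⟩ := cent_iso (C := centralizer ({t} : Set G)) hC ⟨t, htC⟩ (by rw [Subgroup.orderOf_mk]; exact ht)
      (by
        rintro ⟨x, hx⟩
        exact Subtype.ext (mem_centralizer_singleton_iff.1 hx)) S' hS' h5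
    have hcommS : IsMulCommutative (S : Subgroup G) :=
      ⟨⟨fun a b => Subtype.ext (hcomm a a.2 b b.2)⟩⟩
    exact Cfsg.Agent.S1644.result S hcommS h8 t ht e
  · exact (not_dihedral hG h1 S hD).elim

end Main

end Cfsg.Agent.Lib.U175
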