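import Cfsg.Agent.Lib.U175.Loc

/-!
# Fixed Sylow subgroups and four-groups in centralizers
-/

set_option autoImplicit false

namespace Cfsg.Agent.Lib.U175

open Subgroup

section Tools

variable {X : Type*} [Group X] [Finite X]

/-- A `q`-subgroup `L` of `H` normalizes a subgroup of order `p` of `H` as soon as `q` does not divide
the number of Sylow `p`-subgroups of `H`. -/
theorem sylow_fix_in {p q m : ℕ} [hp : Fact p.Prime] [hq : Fact q.Prime] (H L : Subgroup X)
    (hLH : L ≤ H) (hH : Nat.card H = p * m) (hm : ¬ p ∣ m) (hL : IsPGroup q L)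
    (hnq : ¬ q ∣ Nat.card (Sylow p H)) :
    ∃ Q : Subgroup X, Q ≤ H ∧ Nat.card Q = p ∧ L ≤ normalizer (Q : Set X) := by
  have hL' : IsPGroup q (L.subgroupOf H) :=
    IsPGroup.of_equiv hL (subgroupOfEquivOfLe hLH).symm
  obtain ⟨S, hS⟩ := hL'.nonempty_fixed_point_of_prime_not_dvd_card (Sylow p H) hnq
  refine ⟨(S : Subgroup H).map H.subtype, ?_, ?_, ?_⟩
  · exact map_subtype_le _
  · rw [Nat.card_congr ((S : Subgroup H).equivMapOfInjective H.subtype H.subtype_injective).toEquiv.symm]
    exact sylow_card_prime' hH hm S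
  · intro x hx
    have h1 : (⟨⟨x, hLH hx⟩, hx⟩ : L.subgroupOf H) • S = S := hS ⟨⟨x, hLH hx⟩, hx⟩
    have h2 : (⟨x, hLH hx⟩ : H) • S = S := h1
    have h3 := (Sylow.smul_eq_iff_mem_normalizer).1 h2
    have h4 := Subgroup.le_normalizer_map (H := (S : Subgroup H)) H.subtype
    exact h4 ⟨_, h3, rfl⟩

/-- A subgroup `T` of order `8` normalizing `P` of prime order with all squares centralizing `P`
meets the centralizer of `P` in order at least four. -/
theorem four_dvd_cent {p : ℕ} [hp : Fact p.Prime] (T P : Subgroup X) (hT : Nat.card T = 8)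
    (hP : Nat.card P = p) (hTN : T ≤ normalizer (P : Set X))
    (hsq : ∀ x ∈ T, x ^ 2 ∈ centralizer (P : Set X)) :
    4 ∣ Nat.card (centralizer (P : Set X)) := by
  classical
  haveI hcyc : IsCyclic P := isCyclic_of_prime_card hP
  haveI : IsCyclic (ZMod (Nat.card P))ˣ := by rw [hP]; infer_instance
  haveI hMA : IsCyclic (MulAut P) :=
    isCyclic_of_surjective _ (IsCyclic.mulAutMulEquiv P).symm.surjective
  let f : T →* MulAut P := P.normalizerMonoidHom.comp (inclusion hTN)
  have hker : ∀ x : T, x ∈ f.ker ↔ (x : X) ∈ centralizer (P : Set X) := by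
    intro x
    rw [MonoidHom.mem_ker]
    have h1 : f x = P.normalizerMonoidHom (inclusion hTN x) := rfl
    rw [h1, ← MonoidHom.mem_ker, normalizerMonoidHom_ker]
    rfl
  have hR : Nat.card f.range ≤ 2 := by
    haveI : Fintype (MulAut P) := Fintype.ofFinite _
    have h1 := IsCyclic.card_pow_eq_one_le (α := MulAut P) (n := 2) (by norm_num)
    have h2 : Nat.card f.range ≤ (Finset.univ.filter (fun a : MulAut P => a ^ 2 = 1)).card := by
      rw [← Nat.card_eq_finsetCard]
      apply Nat.card_le_card_of_injective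
        (fun a : f.range => (⟨a.1, ?_⟩ : {x // x ∈ Finset.univ.filter (fun a : MulAut P => a ^ 2 = 1)}))
      · intro a b hab
        exact Subtype.ext (congrArg (fun z => z.1) hab)
      · obtain ⟨x, hx⟩ := a.2
        simp only [Finset.mem_filter, Finset.mem_univ, true_and]
        rw [← hx, ← map_pow]
        exact ((hker (x ^ 2)).2 (hsq x x.2))
    exact h2.trans h1
  have h3 := Subgroup.card_mul_index f.ker
  rw [Subgroup.index_ker, hT] at h3
  have hk : 4 ∣ Nat.card f.ker := by
    have hR0 : 0 < Nat.card f.range := Nat.card_pos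
    have hR' : Nat.card f.range = 1 ∨ Nat.card f.range = 2 := by omega
    rcases hR' with h | h <;> rw [h] at h3
    · omega
    · omega
  refine hk.trans ?_
  have h5 : (f.ker.map T.subtype) ≤ centralizer (P : Set X) := by
    rintro _ ⟨x, hx, rfl⟩
    exact (hker x).1 hx
  have h6 := Subgroup.card_dvd_of_le h5
  rwa [← Nat.card_congr (f.ker.equivMapOfInjective T.subtype T.subtype_injective).toEquiv] at h6

end Tools

end Cfsg.Agent.Lib.U175
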